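import Cfsg.Agent.SimsLocal.Main

/-! Sims' theorem in local form: assembly. -/

set_option autoImplicit false

namespace Cfsg.Agent.SimsLocal

open scoped commutatorElement

variable {H : Type*} [Group H] [Finite H]

/-- The elements of `G` outside the Sylow subgroup conjugate it to a different one. -/
theorem sylow_setup (G : Subgroup H) (S : Sylow 2 ↥G) {q : ℕ} (hq : q.Prime)
    (hD : Nonempty (↥G ⧸ Cfsg.pCore 2 ↥G ≃* DihedralGroup q)) :
    q ≠ 2 ∧ Cfsg.pCore 2 ↥G ≤ (S : Subgroup ↥G) ∧
    (Cfsg.pCore 2 ↥G).relIndex (S : Subgroup ↥G) = 2 ∧ (S : Subgroup ↥G).index = q ∧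
    (Cfsg.pCore 2 ↥G).index = 2 * q := by
  haveI : Fact (Nat.Prime 2) := ⟨Nat.prime_two⟩
  obtain ⟨e⟩ := hD
  have hQi : (Cfsg.pCore 2 ↥G).index = 2 * q := by
    rw [Subgroup.index_eq_card, Nat.card_congr e.toEquiv, DihedralGroup.nat_card]
  have hQS : Cfsg.pCore 2 ↥G ≤ (S : Subgroup ↥G) := Cores.pCore_le_sylow S
  have hq2 : q ≠ 2 := by
    rintro rfl
    obtain ⟨a, ha⟩ := IsPGroup.iff_card.mp (Cores.pCore_isPGroup (p := 2) (G := ↥G))
    have hG : IsPGroup 2 ↥G := by
      refine IsPGroup.of_card (n := a + 2) ?_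
      rw [← Subgroup.card_mul_index (Cfsg.pCore 2 ↥G), ha, hQi]
      ring
    have h1 := Cores.pCore_eq_top_of_isPGroup hG
    rw [h1, Subgroup.index_top] at hQi
    omega
  have hmul := Subgroup.relIndex_mul_index hQS
  rw [hQi] at hmul
  obtain ⟨a, ha⟩ := IsPGroup.iff_card.mp S.2
  have hdvd : (Cfsg.pCore 2 ↥G).relIndex (S : Subgroup ↥G) ∣ 2 ^ a :=
    ha ▸ Subgroup.relIndex_dvd_card _ _
  obtain ⟨i, -, hi⟩ := (Nat.dvd_prime_pow Nat.prime_two).mp hdvd
  have hodd : ¬ 2 ∣ (S : Subgroup ↥G).index := Sylow.not_dvd_index S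
  rw [hi] at hmul
  rcases i with _ | _ | i
  · rw [pow_zero, one_mul] at hmul
    exact absurd (hmul ▸ dvd_mul_right 2 q) hodd
  · refine ⟨hq2, hQS, by rw [hi]; rfl, ?_, hQi⟩
    rw [pow_one] at hmul
    omega
  · exfalso
    have h4 : 2 ∣ q := ⟨2 ^ i * (S : Subgroup ↥G).index, by
      have h2 : 2 ^ (i + 2) = 4 * 2 ^ i := by ring
      rw [h2, mul_assoc] at hmul
      rw [show (2 ^ i * (S : Subgroup ↥G).index) = 2 ^ i * (S : Subgroup ↥G).index from rfl]
      omega⟩
    exact hq2 ((Nat.prime_dvd_prime_iff_eq Nat.prime_two hq).mp h4).symm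

theorem map_inf_conj_eq {G : Subgroup H} {Q S : Subgroup ↥G} [Q.Normal] {q : ℕ} (hq : q.Prime)
    (hQS : Q ≤ S) (hQ2 : Q.relIndex S = 2) (hSi : S.index = q) (hSn : ¬ S.Normal) {x : ↥G}
    (hx : x ∉ S) :
    S ⊓ S.map (MulAut.conj x).toMonoidHom = Q ∧ S ⊔ S.map (MulAut.conj x).toMonoidHom = ⊤ := by
  have hN : Subgroup.normalizer (S : Set ↥G) = S := by
    have h := Subgroup.relIndex_mul_index (Subgroup.le_normalizer (H := S))
    rw [hSi] at h
    rcases (Nat.dvd_prime hq).mp (Dvd.intro_left _ h) with h1 | h1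
    · exact absurd (Subgroup.normalizer_eq_top_iff.mp (Subgroup.index_eq_one.mp h1)) hSn
    · refine le_antisymm (Subgroup.relIndex_eq_one.mp ?_) Subgroup.le_normalizer
      rw [h1] at h
      exact Nat.eq_of_mul_eq_mul_right hq.pos (by rw [h, one_mul])
  set T := S.map (MulAut.conj x).toMonoidHom with hT
  have hne : T ≠ S := fun e => hx (hN ▸ Subgroup.mem_normalizer_iff_map_conj_eq.mpr e)
  have hcard : Nat.card T = Nat.card S := Subgroup.card_map_of_injective (MulAut.conj x).injective
  have hnle : ¬ T ≤ S := fun h => hne (Subgroup.eq_of_le_of_card_ge h hcard.ge)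
  constructor
  · have hQT : Q ≤ T := by
      rw [hT, ← Subgroup.map_comap_eq_self_of_surjective (f := (MulAut.conj x).toMonoidHom)
        (MulAut.conj x).surjective Q]
      refine Subgroup.map_mono fun y hy => hQS ?_
      have hy' : x * y * x⁻¹ ∈ Q := hy
      simpa [mul_assoc] using (inferInstance : Q.Normal).conj_mem _ hy' x⁻¹
    refine le_antisymm ?_ (le_inf hQS hQT)
    have hle : Q ≤ S ⊓ T := le_inf hQS hQT
    have h := Subgroup.relIndex_mul_relIndex Q (S ⊓ T) S hle inf_le_left
    rw [hQ2] at h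
    rcases (Nat.dvd_prime Nat.prime_two).mp (Dvd.intro_left _ h) with h1 | h1
    · exfalso
      refine hne (Subgroup.eq_of_le_of_card_ge
        ((Subgroup.relIndex_eq_one.mp h1).trans inf_le_right) hcard.le).symm
    · rw [h1] at h
      exact Subgroup.relIndex_eq_one.mp (by omega)
  · refine Subgroup.index_eq_one.mp ?_
    have h := Subgroup.relIndex_mul_index (le_sup_left : S ≤ S ⊔ T)
    rw [hSi] at h
    rcases (Nat.dvd_prime hq).mp (Dvd.intro_left _ h) with h1 | h1
    · exact h1
    · exfalso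
      rw [h1] at h
      have h2 : S.relIndex (S ⊔ T) = 1 :=
        Nat.eq_of_mul_eq_mul_right hq.pos (by rw [h, one_mul])
      exact hnle (le_sup_right.trans (Subgroup.relIndex_eq_one.mp h2))

variable [IsSimpleGroup H]

/-- The frame of translates belonging to the configuration. -/
theorem exists_frame_of_local (hna : ¬ IsMulCommutative H) (G : Subgroup H) (hG : IsCoatom G)
    (hchar : Subgroup.centralizer (Cfsg.pCore 2 ↥G : Set ↥G) ≤ Cfsg.pCore 2 ↥G) (S : Sylow 2 ↥G)
    (hN : ¬ Subgroup.normalizer (((S : Subgroup ↥G).map G.subtype : Subgroup H) : Set H) ≤ G)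
    {q : ℕ} (hq : q.Prime) (hD : Nonempty (↥G ⧸ Cfsg.pCore 2 ↥G ≃* DihedralGroup q)) :
    ∃ (φ : MulAut H) (t : ℤ → H) (s d : ℕ), Frame φ t s ∧ Frame.IsDist t d ∧ d + 1 ≤ s ∧
      iv t 0 (s + 2) = ⊤ ∧ iv t 0 (s + 1) = G ∧
      iv t 1 (s - 1) = (Cfsg.pCore 2 ↥G).map G.subtype := by
  haveI : Fact (Nat.Prime 2) := ⟨Nat.prime_two⟩
  obtain ⟨hq2, hQS, hQ2, hSi, hQi⟩ := sylow_setup G S hq hD
  set Q := Cfsg.pCore 2 ↥G with hQdef
  have hSn : ¬ (S : Subgroup ↥G).Normal := fun hn => by
    have h := Cores.le_pCore hn S.2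
    rw [Subgroup.relIndex_eq_one.mpr h] at hQ2
    omega
  obtain ⟨x, hx⟩ : ∃ x : ↥G, x ∉ (S : Subgroup ↥G) := by
    by_contra hh
    push Not at hh
    have htop : (S : Subgroup ↥G) = ⊤ := eq_top_iff.mpr fun y _ => hh y
    rw [htop, Subgroup.index_top] at hSi
    exact hq.one_lt.ne hSi
  obtain ⟨n, hn, hnG⟩ := SetLike.not_le_iff_exists.mp hN
  set SH := (S : Subgroup ↥G).map G.subtype with hSH
  set QH := Q.map G.subtype with hQH
  let φ : MulAut H := MulAut.conj ((x : H) * n)⁻¹
  have hφ : ∀ (i : ℤ) (K : Subgroup H),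
      sh φ i K = K.map (MulAut.conj (((x : H) * n)⁻¹ ^ i)).toMonoidHom := by
    intro i K
    rw [sh, ← map_zpow]
  have hnS : SH.map (MulAut.conj n⁻¹).toMonoidHom = SH :=
    Subgroup.mem_normalizer_iff_map_conj_eq.mp (inv_mem hn)
  have hconjG : ∀ y : ↥G, SH.map (MulAut.conj (y : H)).toMonoidHom =
      ((S : Subgroup ↥G).map (MulAut.conj y).toMonoidHom).map G.subtype := by
    intro y
    rw [hSH, Subgroup.map_map, Subgroup.map_map]
    rfl
  have hx' : x⁻¹ ∉ (S : Subgroup ↥G) := fun h => hx (inv_inv x ▸ inv_mem h)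
  obtain ⟨hiA, hsA⟩ := map_inf_conj_eq hq hQS hQ2 hSi hSn hx'
  obtain ⟨hiB, hsB⟩ := map_inf_conj_eq hq hQS hQ2 hSi hSn hx
  have hsh1 : sh φ 1 SH = (SH.map (MulAut.conj ((x⁻¹ : ↥G) : H)).toMonoidHom).map
      (MulAut.conj n⁻¹).toMonoidHom := by
    rw [hφ, zpow_one, mul_inv_rev, map_mul]
    conv_rhs => rw [Subgroup.map_map]
    rfl
  have hshm : sh φ (-1) SH = SH.map (MulAut.conj (x : H)).toMonoidHom := by
    rw [hφ, zpow_neg, zpow_one, inv_inv, map_mul]
    have h1 : SH.map (MulAut.conj n).toMonoidHom = SH :=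
      Subgroup.mem_normalizer_iff_map_conj_eq.mp hn
    conv_rhs => rw [← h1, Subgroup.map_map]
    rfl
  have hcardS : ∃ s, Nat.card SH = 2 ^ s := IsPGroup.iff_card.mp (S.2.map _)
  obtain ⟨s, hs⟩ := hcardS
  have hP1 : P φ SH 1 = QH.map (MulAut.conj n⁻¹).toMonoidHom := by
    show SH ⊓ sh φ 1 SH = _
    conv_lhs => arg 1; rw [← hnS]
    rw [hsh1, hconjG x⁻¹, ← Subgroup.map_inf _ _ _ (MulAut.conj n⁻¹).injective, hSH,
      ← Subgroup.map_inf _ _ _ G.subtype_injective, hiA]
  have hfirst : (P φ SH 1).relIndex SH = 2 := by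
    rw [hP1]
    conv_lhs => arg 2; rw [← hnS]
    rw [Subgroup.relIndex_map_map_of_injective _ _ (MulAut.conj n⁻¹).injective, hQH, hSH,
      Subgroup.relIndex_map_map_of_injective _ _ G.subtype_injective, hQ2]
  have hGsup : SH ⊔ sh φ (-1) SH = G := by
    rw [hshm, hconjG x, hSH, ← Subgroup.map_sup, hsB, ← MonoidHom.range_eq_map,
      Subgroup.range_subtype]
  have hGne : G ≠ ⊥ := by
    intro hb
    have hbt : (⊤ : Subgroup ↥G) = ⊥ := by
      rw [eq_bot_iff]
      intro y _
      exact Subgroup.mem_bot.mpr (Subtype.ext (Subgroup.mem_bot.mp (hb ▸ y.2)))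
    exact hSn (by
      have : (S : Subgroup ↥G) = ⊥ := le_bot_iff.mp (hbt ▸ le_top)
      rw [this]; infer_instance)
  have hNG : Subgroup.normalizer (G : Set H) = G := by
    rcases hG.le_iff.mp (Subgroup.le_normalizer (H := G)) with h | h
    · rcases (Subgroup.normalizer_eq_top_iff.mp h).eq_bot_or_eq_top with h1 | h1
      · exact absurd h1 hGne
      · exact absurd h1 hG.1
    · exact h
  have hbig : ∀ M : Subgroup H, SH ≤ M → sh φ (-1) SH ≤ M → sh φ 1 SH ≤ M → M = ⊤ := by
    intro M h1 h2 h3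
    have hGM : G ≤ M := by rw [← hGsup]; exact sup_le h1 h2
    rcases hG.le_iff.mp hGM with h | h
    · exact h
    · exfalso
      have h4 : sh φ 1 G ≤ G := by
        conv_lhs => rw [← hGsup, sh_sup, sh_sh, add_neg_cancel, sh_zero]
        rw [h] at h1 h3
        exact sup_le h3 h1
      have h5 := Subgroup.eq_of_le_of_card_ge h4 (card_sh φ 1 G).ge
      rw [hφ, zpow_one] at h5
      have h6 : ((x : H) * n)⁻¹ ∈ Subgroup.normalizer (G : Set H) :=
        Subgroup.mem_normalizer_iff_map_conj_eq.mpr h5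
      rw [hNG] at h6
      exact hnG (by simpa using mul_mem (inv_mem x.2) (inv_mem h6))
  have hsetup : Setup φ SH s := by
    refine ⟨hs, hfirst, fun K hK hfix hn' => ?_⟩
    have h := hbig _ hn' (sh_le_normalizer hfix hn' _) (sh_le_normalizer hfix hn' _)
    rcases (Subgroup.normalizer_eq_top_iff.mp h).eq_bot_or_eq_top with h1 | h1
    · exact h1
    · exfalso
      exact hG.1 (eq_top_iff.mpr (h1 ▸ hK.trans (Subgroup.map_subtype_le _)))
  have hs1 : 1 ≤ s := by
    by_contra h0
    have : s = 0 := by omega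
    subst this
    rw [pow_zero] at hs
    have hb := Subgroup.card_eq_one.mp hs
    rw [hb, Subgroup.relIndex_bot_right] at hfirst
    omega
  obtain ⟨t, hF, hiv⟩ := hsetup.exists_frame hs1
  have hshiv : ∀ (i : ℤ) (l : ℕ), sh φ (-1) (iv t i l) = iv t (i - 1) l := by
    intro i l
    have h := hF.map_iv (i - 1) l
    rw [sub_add_cancel] at h
    rw [← h]
    show sh φ (-1) ((iv t (i - 1) l).map φ.toMonoidHom) = _
    rw [show (iv t (i - 1) l).map φ.toMonoidHom = sh φ 1 (iv t (i - 1) l) by rw [sh, zpow_one],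
      sh_sh, neg_add_cancel, sh_zero]
  have hm1 : sh φ (-1) SH = iv t 0 s := by rw [← hiv, hshiv, sub_self]
  have hp1 : sh φ 1 SH = iv t 2 s := by
    rw [← hiv, sh, zpow_one, hF.map_iv]; norm_num
  have hG01 : iv t 0 (s + 1) = G := by
    rw [← hGsup, hm1, ← hiv]
    refine le_antisymm ((Subgroup.closure_le _).mpr ?_)
      (sup_le (iv_mono (by norm_num) (by push_cast; omega)) (iv_mono le_rfl (by push_cast; omega)))
    rintro y ⟨j, a, b, rfl⟩
    push_cast at b
    by_cases hj : j = 0
    · exact Subgroup.mem_sup_right (mem_iv a (by omega))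
    · exact Subgroup.mem_sup_left (mem_iv (by omega) (by omega))
  have htop : iv t 0 (s + 2) = ⊤ := by
    refine hbig _ ?_ ?_ ?_
    · rw [← hiv]; exact iv_mono (by norm_num) (by push_cast; omega)
    · rw [hm1]; exact iv_mono le_rfl (by push_cast; omega)
    · rw [hp1]; exact iv_mono (by norm_num) (by push_cast; omega)
  have hQiv : iv t 1 (s - 1) = QH := by
    have h1 : SH ⊓ sh φ (-1) SH = QH := by
      rw [hshm, hconjG x, hSH, ← Subgroup.map_inf _ _ _ G.subtype_injective, hiB]
    rw [← h1, hm1, ← hiv, inf_comm]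
    rcases Nat.lt_or_ge s 2 with h2 | h2
    · obtain rfl : s = 1 := by omega
      rw [Nat.sub_self, iv_zero, eq_comm, eq_bot_iff]
      intro g hg
      rcases hF.eq_of_mem_one le_rfl hg.1 with h3 | h3
      · exact Subgroup.mem_bot.mpr h3
      · exact absurd (h3 ▸ hg.2 : t 0 ∈ iv t 1 1) fun hm => by
          have := hF.not_mem (i := 0) (l := 0) le_rfl
          have hle : iv t 0 1 ≤ iv t 1 1 := by
            rw [iv_succ, iv_zero, sup_bot_eq]; exact Subgroup.zpowers_le.mpr hm
          have heq := Subgroup.eq_of_le_of_card_ge hle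
            (by rw [hF.card 0 1 le_rfl, hF.card 1 1 le_rfl])
          have hfix : sh φ 1 (iv t 0 1) = iv t 0 1 := by
            rw [sh, zpow_one, hF.map_iv, heq]; norm_num
          have hb := hsetup.core (iv t 0 1) (by rw [← hiv, heq]) hfix
            (by rw [← hiv, ← heq]; exact Subgroup.le_normalizer)
          have hcd := hF.card 0 1 le_rfl
          rw [hb, Subgroup.card_bot] at hcd
          exact absurd hcd (by norm_num)
    · obtain ⟨l, rfl⟩ := Nat.exists_eq_add_of_le h2
      have h3 := hF.inter 0 l (by omega)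
      have hcomm : (2 : ℕ) + l = l + 1 + 1 := by omega
      rw [hcomm]
      have hc1 := hF.card 0 (l + 1 + 1) (by omega)
      -- the intersection of two full intervals
      have hsub : iv t 1 (l + 1) ≤ iv t 0 (l + 1 + 1) ⊓ iv t 1 (l + 1 + 1) :=
        le_inf (iv_mono (by norm_num) (by push_cast; omega)) (iv_mono le_rfl (by push_cast; omega))
      rw [show l + 1 + 1 - 1 = l + 1 by omega]
      refine Subgroup.eq_of_le_of_card_ge hsub ?_
      have hne : ¬ iv t 0 (l + 1 + 1) ≤ iv t 1 (l + 1 + 1) := by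
        intro hle
        have heq := Subgroup.eq_of_le_of_card_ge hle
          (by rw [hc1, hF.card 1 (l + 1 + 1) (by omega)])
        have hfix : sh φ 1 (iv t 1 (l + 1 + 1)) = iv t 1 (l + 1 + 1) := by
          conv_lhs => rw [← heq, sh, zpow_one, hF.map_iv, zero_add]
        have hb := hsetup.core (iv t 1 (l + 1 + 1)) (by rw [← hiv, ← hcomm]) hfix
          (by rw [← hiv, ← hcomm]; exact Subgroup.le_normalizer)
        have hcd := hF.card 1 (l + 1 + 1) (by omega)
        rw [hb, Subgroup.card_bot] at hcd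
        have := Nat.one_lt_two_pow (show l + 1 + 1 ≠ 0 by omega)
        omega
      have hlt : Nat.card ↥(iv t 0 (l + 1 + 1) ⊓ iv t 1 (l + 1 + 1)) ∣ 2 ^ (l + 1 + 1) :=
        hc1 ▸ Subgroup.card_dvd_of_le inf_le_left
      obtain ⟨i, hi, hi'⟩ := (Nat.dvd_prime_pow Nat.prime_two).mp hlt
      have hne' : i ≠ l + 1 + 1 := by
        rintro rfl
        exact hne (inf_eq_left.mp (Subgroup.eq_of_le_of_card_ge inf_le_left (by rw [hi', hc1])))
      rw [hi', hF.card 1 (l + 1) (by omega)]
      exact Nat.pow_le_pow_right (by norm_num) (by omega)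
  -- some translates inside `S` do not commute
  have hexd : ∃ k : ℕ, k < s ∧ ¬ Commute (t 0) (t k) := by
    by_contra hh
    push Not at hh
    have hcomm : ∀ a b : ℤ, 1 ≤ a → a < 1 + s → 1 ≤ b → b < 1 + s → Commute (t a) (t b) := by
      intro a b a1 a2 b1 b2
      rcases Int.le_total a b with hab | hab
      · obtain ⟨k, hk⟩ := Int.eq_ofNat_of_zero_le (show 0 ≤ b - a by omega)
        have h := (hF.commute_shift_iff 0 k a).mpr (hh k (by omega))
        rwa [zero_add, show (k : ℤ) + a = b by omega] at h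
      · obtain ⟨k, hk⟩ := Int.eq_ofNat_of_zero_le (show 0 ≤ a - b by omega)
        have h := ((hF.commute_shift_iff 0 k b).mpr (hh k (by omega))).symm
        rwa [zero_add, show (k : ℤ) + b = a by omega] at h
    have hle : (S : Subgroup ↥G) ≤ Q := by
      intro y hy
      refine hchar fun z hz => ?_
      refine Subtype.ext ?_
      have hyiv : (y : H) ∈ iv t 1 s := hiv.ge ⟨y, hy, rfl⟩
      have hziv : (z : H) ∈ iv t 1 s := hiv.ge ⟨z, hQS hz, rfl⟩
      exact (commute_iv_iv hziv hyiv hcomm).eq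
    rw [Subgroup.relIndex_eq_one.mpr hle] at hQ2
    omega
  classical
  refine ⟨φ, t, s, Nat.find hexd, hF, ⟨?_, (Nat.find_spec hexd).2, fun k hk => ?_⟩,
    (Nat.find_spec hexd).1, htop, hG01, hQiv⟩
  · by_contra h0
    have h1 := (Nat.find_spec hexd).2
    rw [show Nat.find hexd = 0 by omega] at h1
    exact h1 (Commute.refl _)
  · have h1 := Nat.find_min hexd hk
    push Not at h1
    exact h1 (lt_trans hk (Nat.find_spec hexd).1)

/-- Sims' theorem in local form. -/
theorem sims_local (hna : ¬ IsMulCommutative H) (G : Subgroup H) (hG : IsCoatom G)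
    (hchar : Subgroup.centralizer (Cfsg.pCore 2 ↥G : Set ↥G) ≤ Cfsg.pCore 2 ↥G) (S : Sylow 2 ↥G)
    (hN : ¬ Subgroup.normalizer (((S : Subgroup ↥G).map G.subtype : Subgroup H) : Set H) ≤ G)
    (q : ℕ) (hq : q.Prime) (hD : Nonempty (↥G ⧸ Cfsg.pCore 2 ↥G ≃* DihedralGroup q)) :
    Nonempty (↥G ≃* Equiv.Perm (Fin 4)) ∨
      Nonempty (↥G ≃* Equiv.Perm (Fin 4) × Multiplicative (ZMod 2)) := by
  haveI : Fact (Nat.Prime 2) := ⟨Nat.prime_two⟩
  obtain ⟨hq2, hQS, hQ2, hSi, hQi⟩ := sylow_setup G S hq hD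
  obtain ⟨φ, t, s, d, hF, hd, hds, htop, hG01, hQiv⟩ :=
    exists_frame_of_local hna G hG hchar S hN hq hD
  set Q := Cfsg.pCore 2 ↥G with hQdef
  set QH := Q.map G.subtype with hQH
  have hQG : QH ≤ G := Subgroup.map_subtype_le _
  have hQn : G ≤ Subgroup.normalizer (QH : Set H) := by
    have h : (QH.subgroupOf G).Normal := by
      rw [hQH, Subgroup.subgroupOf, Subgroup.comap_map_eq_self_of_injective G.subtype_injective]
      infer_instance
    exact (Subgroup.normal_subgroupOf_iff_le_normalizer hQG).mp h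
  have hcent : G ⊓ Subgroup.centralizer (QH : Set H) ≤ QH := by
    rintro g ⟨hg, hgc⟩
    refine ⟨⟨g, hg⟩, hchar fun z hz => Subtype.ext ?_, rfl⟩
    exact hgc (z : H) ⟨z, hz, rfl⟩
  have hcardG : Nat.card G = 2 ^ (s - 1) * (2 * q) := by
    rw [← hQi, ← hF.card 1 (s - 1) (by omega), hQiv, hQH,
      Subgroup.card_map_of_injective G.subtype_injective]
    exact (Subgroup.card_mul_index Q).symm
  have ht0G : t 0 ∈ G := hG01 ▸ mem_iv le_rfl (by push_cast; omega)
  have htsG : t s ∈ G := hG01 ▸ mem_iv (by omega) (by push_cast; omega)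
  set D := Subgroup.closure ({t 0, t s} : Set H) with hDdef
  have hDG : D ≤ G := by
    rw [hDdef, Subgroup.closure_le]; rintro y (rfl | rfl) <;> assumption
  have hgen : G ≤ QH ⊔ D := by
    rw [← hG01, iv, Subgroup.closure_le]
    rintro y ⟨j, a, b, rfl⟩
    push_cast at b
    rcases eq_or_ne j 0 with rfl | h0
    · exact Subgroup.mem_sup_right (Subgroup.subset_closure (Or.inl rfl))
    rcases eq_or_ne j (s : ℤ) with rfl | h1
    · exact Subgroup.mem_sup_right (Subgroup.subset_closure (Or.inr rfl))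
    · exact Subgroup.mem_sup_left (hQiv ▸ mem_iv (by omega) (by omega))
  -- the order of the image of `t 0 * t s`
  let π := QuotientGroup.mk' Q
  have hbound : ∀ k, 0 < k → (π (⟨t 0, ht0G⟩ * ⟨t s, htsG⟩)) ^ k = 1 → q ≤ k := by
    intro k hk hpow
    have h2 := closure_pair_card_le (H := ↥G ⧸ Q) (a := π ⟨t 0, ht0G⟩) (b := π ⟨t s, htsG⟩)
      (by rw [← map_mul]; exact (congrArg π (Subtype.ext (hF.sq 0))).trans π.map_one)
      (by rw [← map_mul]; exact (congrArg π (Subtype.ext (hF.sq s))).trans π.map_one)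
      hk (by rwa [← map_mul])
    have htop' : Subgroup.closure ({π ⟨t 0, ht0G⟩, π ⟨t s, htsG⟩} : Set (↥G ⧸ Q)) = ⊤ := by
      rw [eq_top_iff]
      intro y _
      obtain ⟨g, rfl⟩ := QuotientGroup.mk'_surjective Q y
      have hg := hgen g.2
      have hn : D ≤ Subgroup.normalizer (QH : Set H) := hDG.trans hQn
      rw [← SetLike.mem_coe, Subgroup.coe_mul_of_right_le_normalizer_left QH D hn] at hg
      obtain ⟨u, hu, v, hv, huv⟩ := hg
      have hvG := hDG hv
      have he : π g = π ⟨v, hvG⟩ := by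
        obtain ⟨u', hu', rfl⟩ := hu
        have hg' : g = u' * ⟨v, hvG⟩ := Subtype.ext huv.symm
        rw [hg', map_mul, (QuotientGroup.eq_one_iff u').mpr hu' |> fun h => (h : π u' = 1), one_mul]
      rw [show (π g : ↥G ⧸ Q) = π ⟨v, hvG⟩ from he]
      have hmap : (⟨v, hvG⟩ : ↥G) ∈ Subgroup.closure ({⟨t 0, ht0G⟩, ⟨t s, htsG⟩} : Set ↥G) := by
        have h1 : D = (Subgroup.closure ({⟨t 0, ht0G⟩, ⟨t s, htsG⟩} : Set ↥G)).map G.subtype := by
          rw [MonoidHom.map_closure, Set.image_pair]; rfl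
        obtain ⟨w, hw, hwv⟩ := h1.le hv
        rwa [show (⟨v, hvG⟩ : ↥G) = w from Subtype.ext hwv.symm]
      have h3 : π ⟨v, hvG⟩ ∈
          (Subgroup.closure ({⟨t 0, ht0G⟩, ⟨t s, htsG⟩} : Set ↥G)).map π := ⟨_, hmap, rfl⟩
      rwa [MonoidHom.map_closure, Set.image_pair] at h3
    rw [htop', Subgroup.card_top, ← Subgroup.index_eq_card, hQi] at h2
    omega
  have hkill : ∀ k, (t 0 * t s) ^ k ∈ Subgroup.centralizer (QH : Set H) →
      (t 0 * t s) ^ k ∈ QH ∧ (π (⟨t 0, ht0G⟩ * ⟨t s, htsG⟩)) ^ k = 1 := by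
    intro k hk
    have h1 := hcent ⟨pow_mem (mul_mem ht0G htsG) k, hk⟩
    refine ⟨h1, ?_⟩
    rw [← map_pow]
    obtain ⟨u, hu, hu'⟩ := h1
    refine (QuotientGroup.eq_one_iff _).mpr ?_
    rwa [show (⟨t 0, ht0G⟩ * ⟨t s, htsG⟩ : ↥G) ^ k = u from Subtype.ext hu'.symm]
  rcases hF.length_cases hna hd hds htop with ⟨rfl, rfl⟩ | ⟨rfl, rfl⟩
  · left
    obtain ⟨h3, hfix⟩ := three hF hd
    norm_num at hQiv hcardG hgen hbound hkill hDdef htsG hG01
    rw [hQiv] at h3
    obtain ⟨hwQ, hπ⟩ := hkill 3 h3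
    have hq3 : q = 3 := by
      have hle := hbound 3 (by norm_num) hπ
      have := hq.two_le
      omega
    have hw3 : (t 0 * t 3) ^ 3 = 1 :=
      hfix _ (hQiv.symm ▸ hwQ) (Commute.pow_self _ 3)
    have hcard24 : Nat.card G = 24 := by rw [hcardG, hq3]
    refine nonempty_equiv_perm_four (E := QH) hQG ht0G htsG (hF.sq 0) (hF.sq 3) hw3 hQn ?_ hcard24
      ?_ hcent
    · rw [← hQiv, hF.card 1 2 (by norm_num)]
      norm_num
    · rw [hDdef] at hgen; exact hgen
  · right
    norm_num at hQiv hcardG hgen hbound hkill hDdef htsG hG01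
    rcases four hF hd with h4 | hrest
    · exfalso
      rw [hQiv] at h4
      obtain ⟨-, hπ⟩ := hkill 4 h4
      have hle := hbound 4 (by norm_num) hπ
      have := hq.two_le
      have hq3 : q = 3 := by
        rcases Nat.lt_or_ge q 4 with h | h
        · omega
        · have : q = 4 := by omega
          subst this
          exact absurd hq (by norm_num)
      have h6 : (π (⟨t 0, ht0G⟩ * ⟨t 4, htsG⟩)) ^ (6 : ℕ) = 1 := by
        have h := pow_card_eq_one' (x := π (⟨t 0, ht0G⟩ * ⟨t 4, htsG⟩))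
        rwa [← Subgroup.index_eq_card, hQi, hq3] at h
      have h2 : (π (⟨t 0, ht0G⟩ * ⟨t 4, htsG⟩)) ^ (2 : ℕ) = 1 := by
        rw [show (6 : ℕ) = 4 + 2 by rfl, pow_add] at h6
        have h' : (π (⟨t 0, ht0G⟩ * ⟨t 4, htsG⟩)) ^ (4 : ℕ) = 1 := by simpa using hπ
        rwa [h', one_mul] at h6
      have := hbound 2 (by norm_num) h2
      omega
    obtain ⟨h3, hfix, hz14, hz03⟩ := hrest (hQiv.symm ▸ hQn (mul_mem ht0G htsG))
    rw [hQiv] at h3
    obtain ⟨hwQ, hπ⟩ := hkill 3 h3
    have hq3 : q = 3 := by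
      have hle := hbound 3 (by norm_num) hπ
      have := hq.two_le
      omega
    have hfix3 := hfix _ (hQiv.symm ▸ hwQ) (Commute.pow_self _ 3)
    have hcard48 : Nat.card G = 48 := by rw [hcardG, hq3]
    have ht : ∀ j : ℤ, 0 ≤ j → j < 5 → t j ∈ G := fun j a b =>
      hG01 ▸ mem_iv a (by push_cast; omega)
    have c := fun (i j : ℤ) (a : i - j < 3) (b : j - i < 3) =>
      hF.commute_of_lt hd (i := i) (j := j) a b
    have hu : ∀ g ∈ G, Commute g (t 2) := by
      intro g hg
      rw [← hG01] at hg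
      exact commute_iv hg fun j a b => by
        push_cast at b
        exact c j 2 (by omega) (by omega)
    have ht2 : t 2 ≠ 1 := fun e =>
      hF.not_mem (i := 2) (l := 0) (by norm_num) (by rw [e]; exact one_mem _)
    obtain ⟨a, haG, ha2, hag, hab⟩ : ∃ a, a ∈ G ∧ a * a = 1 ∧ (a = t 0 ∨ a = t 0 * t 2) ∧
        (a * t 4) ^ 3 = 1 := by
      rcases hfix3 with h1 | h1
      · exact ⟨t 0, ht0G, hF.sq 0, Or.inl rfl, h1⟩
      · refine ⟨t 0 * t 2, mul_mem ht0G (ht 2 (by norm_num) (by norm_num)), ?_, Or.inr rfl, ?_⟩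
        · rw [(c 0 2 (by norm_num) (by norm_num)).symm.mul_mul_mul_comm, hF.sq, hF.sq, one_mul]
        · have hc2 : Commute (t 0 * t 4) (t 2) := hu _ (mul_mem ht0G htsG)
          rw [show t 0 * t 2 * t 4 = t 0 * t 4 * t 2 by
            rw [mul_assoc, (hu _ htsG).symm.eq, ← mul_assoc], hc2.mul_pow, h1, pow_succ, pow_two,
            ← mul_assoc, ← mul_assoc, hF.sq, one_mul, hF.sq]
    have hx23 : t 2 * t 3 ∈ iv t 2 2 :=
      mul_mem (mem_iv le_rfl (by norm_num)) (mem_iv (by norm_num) (by norm_num))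
    have hx12 : t 1 * t 2 ∈ iv t 1 2 :=
      mul_mem (mem_iv le_rfl (by norm_num)) (mem_iv (by norm_num) (by norm_num))
    let E : Subgroup H :=
      { carrier := {g | g = 1 ∨ g = t 2 * t 3 ∨ g = t 1 * t 2 ∨ g = t 1 * t 3}
        one_mem' := Or.inl rfl
        mul_mem' := by
          have s1 := hF.sq 1; have s2 := hF.sq 2; have s3 := hF.sq 3
          have k12 : t 2 * t 1 = t 1 * t 2 := (c 2 1 (by norm_num) (by norm_num)).eq
          have k13 : t 3 * t 1 = t 1 * t 3 := (c 3 1 (by norm_num) (by norm_num)).eq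
          have k23 : t 3 * t 2 = t 2 * t 3 := (c 3 2 (by norm_num) (by norm_num)).eq
          have k12' : ∀ x, t 2 * (t 1 * x) = t 1 * (t 2 * x) := fun x => by
            rw [← mul_assoc, k12, mul_assoc]
          have k13' : ∀ x, t 3 * (t 1 * x) = t 1 * (t 3 * x) := fun x => by
            rw [← mul_assoc, k13, mul_assoc]
          have k23' : ∀ x, t 3 * (t 2 * x) = t 2 * (t 3 * x) := fun x => by
            rw [← mul_assoc, k23, mul_assoc]
          have q1 : ∀ x, t 1 * (t 1 * x) = x := fun x => by rw [← mul_assoc, s1, one_mul]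
          have q2 : ∀ x, t 2 * (t 2 * x) = x := fun x => by rw [← mul_assoc, s2, one_mul]
          have q3 : ∀ x, t 3 * (t 3 * x) = x := fun x => by rw [← mul_assoc, s3, one_mul]
          rintro x y (rfl | rfl | rfl | rfl) (rfl | rfl | rfl | rfl) <;>
            simp [Set.mem_setOf_eq, mul_assoc, k12, k13, k23, k12', k13', k23', q1, q2, q3,
              s1, s2, s3]
        inv_mem' := by
          rintro x (rfl | rfl | rfl | rfl)
          · exact Or.inl inv_one
          · exact Or.inr (Or.inl (by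
              rw [mul_inv_rev, hF.inv, hF.inv, (c 3 2 (by norm_num) (by norm_num)).eq]))
          · exact Or.inr (Or.inr (Or.inl (by
              rw [mul_inv_rev, hF.inv, hF.inv, (c 2 1 (by norm_num) (by norm_num)).eq])))
          · exact Or.inr (Or.inr (Or.inr (by
              rw [mul_inv_rev, hF.inv, hF.inv, (c 3 1 (by norm_num) (by norm_num)).eq]))) }
    have hEQ : E ≤ QH := by
      rw [← hQiv]
      rintro x (rfl | rfl | rfl | rfl)
      · exact one_mem _
      all_goals exact mul_mem (mem_iv (by norm_num) (by norm_num)) (mem_iv (by norm_num) (by norm_num))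
    have ht2E : t 2 ∉ E := by
      rintro (h1 | h1 | h1 | h1)
      · exact ht2 h1
      · exact hF.not_mem (i := 3) (l := 0) (by norm_num) (by
          rw [left_eq_mul.mp h1]; exact one_mem _)
      · exact hF.not_mem (i := 1) (l := 0) (by norm_num) (by
          rw [right_eq_mul.mp h1]; exact one_mem _)
      · refine hF.not_mem (i := 1) (l := 2) (by norm_num) ?_
        rw [show t 1 = t 2 * t 3 by rw [h1, mul_assoc, hF.sq, mul_one]]
        norm_num
        exact hx23
    have hEcard : Nat.card E = 4 := by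
      have h1 : E ⊔ Subgroup.zpowers (t 2) = QH := by
        refine le_antisymm (sup_le hEQ (by
          rw [← hQiv, Subgroup.zpowers_le]; exact mem_iv (by norm_num) (by norm_num))) ?_
        rw [← hQiv, iv, Subgroup.closure_le]
        rintro y ⟨j, a, b, rfl⟩
        have : j = 1 ∨ j = 2 ∨ j = 3 := by push_cast at b; omega
        rcases this with rfl | rfl | rfl
        · rw [show t 1 = t 1 * t 2 * t 2 by rw [mul_assoc, hF.sq, mul_one]]
          exact Subgroup.mul_mem_sup (Or.inr (Or.inr (Or.inl rfl))) (Subgroup.mem_zpowers _)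
        · exact Subgroup.mem_sup_right (Subgroup.mem_zpowers _)
        · rw [show t 3 = t 2 * t 3 * t 2 by
            rw [(c 2 3 (by norm_num) (by norm_num)).eq, mul_assoc, hF.sq, mul_one]]
          exact Subgroup.mul_mem_sup (Or.inr (Or.inl rfl)) (Subgroup.mem_zpowers _)
      have hle : Nat.card E ≤ 4 := by
        classical
        have hsub : (E : Set H) ⊆ ↑({1, t 2 * t 3, t 1 * t 2, t 1 * t 3} : Finset H) := by
          intro y hy
          change y = 1 ∨ y = t 2 * t 3 ∨ y = t 1 * t 2 ∨ y = t 1 * t 3 at hy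
          simpa using hy
        have h2 := Set.ncard_le_ncard hsub (Finset.finite_toSet _)
        rw [Set.ncard_coe_finset] at h2
        exact le_trans (Nat.card_coe_set_eq (E : Set H)).le (h2.trans Finset.card_le_four)
      have hn : Subgroup.zpowers (t 2) ≤ Subgroup.normalizer (E : Set H) := by
        rw [Subgroup.zpowers_le]
        refine Subgroup.centralizer_le_normalizer _ fun e he => ?_
        exact (hu e (hQG (hEQ he))).eq
      have hprod := Modules.card_sup_mul_card_inf hn
      rw [sup_comm, h1, ← hQiv, hF.card 1 3 (by norm_num), Nat.card_zpowers,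
        orderOf_eq_prime (by rw [pow_two]; exact hF.sq 2) ht2] at hprod
      have hpos : 0 < Nat.card ↥(Subgroup.zpowers (t 2) ⊓ E) := Nat.card_pos
      nlinarith
    have hconj : ∀ x : H, (∀ y, y = t 2 * t 3 ∨ y = t 1 * t 2 → x * y * x⁻¹ ∈ E) →
        x ∈ Subgroup.normalizer (E : Set H) := by
      intro x hx
      have hprod : t 1 * t 3 = t 1 * t 2 * (t 2 * t 3) := by
        rw [mul_assoc, ← mul_assoc (t 2), hF.sq, one_mul]
      have hle : E.map (MulAut.conj x).toMonoidHom ≤ E := by
        rintro _ ⟨y, hy, rfl⟩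
        rcases hy with rfl | rfl | rfl | rfl
        · simp
        · exact hx _ (Or.inl rfl)
        · exact hx _ (Or.inr rfl)
        · show x * (t 1 * t 3) * x⁻¹ ∈ E
          rw [hprod, conj_mul_apply]
          exact mul_mem (hx _ (Or.inr rfl)) (hx _ (Or.inl rfl))
      exact Subgroup.mem_normalizer_iff_map_conj_eq.mpr (Subgroup.eq_of_le_of_card_ge hle
        (Subgroup.card_map_of_injective (MulAut.conj x).injective).ge)
    have b1 := (conj_eq_of_commutator (hF.sq 1) (hF.sq 4) hz14).1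
    have a3 := (conj_eq_of_commutator (hF.sq 0) (hF.sq 3) hz03).2
    have cf : ∀ i j : ℤ, i - j < 3 → j - i < 3 → t i * t j * (t i)⁻¹ = t j := fun i j p r => by
      rw [(c i j p r).eq, mul_inv_cancel_right]
    have hn4 : t 4 ∈ Subgroup.normalizer (E : Set H) := by
      refine hconj _ fun y hy => ?_
      rcases hy with rfl | rfl
      · rw [conj_mul_apply, cf 4 2 (by norm_num) (by norm_num), cf 4 3 (by norm_num) (by norm_num)]
        exact Or.inr (Or.inl rfl)
      · rw [conj_mul_apply, b1, cf 4 2 (by norm_num) (by norm_num)]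
        refine Or.inr (Or.inr (Or.inr ?_))
        rw [mul_assoc (t 1), mul_assoc (t 2), (c 3 2 (by norm_num) (by norm_num)).eq,
          ← mul_assoc (t 2), hF.sq, one_mul]
    have hn0 : t 0 ∈ Subgroup.normalizer (E : Set H) := by
      refine hconj _ fun y hy => ?_
      rcases hy with rfl | rfl
      · rw [conj_mul_apply, cf 0 2 (by norm_num) (by norm_num), a3]
        refine Or.inr (Or.inr (Or.inr ?_))
        rw [← mul_assoc, ← mul_assoc, (c 2 1 (by norm_num) (by norm_num)).eq, mul_assoc (t 1),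
          hF.sq, mul_one]
      · rw [conj_mul_apply, cf 0 2 (by norm_num) (by norm_num), cf 0 1 (by norm_num) (by norm_num)]
        exact Or.inr (Or.inr (Or.inl rfl))
    have hna' : a ∈ Subgroup.normalizer (E : Set H) := by
      rcases hag with rfl | rfl
      · exact hn0
      · refine mul_mem hn0 (Subgroup.centralizer_le_normalizer _ fun e he => ?_)
        exact (hu e (hQG (hEQ he))).eq
    set D' := Subgroup.closure ({a, t 4} : Set H) with hD'
    have hD'n : D' ≤ Subgroup.normalizer (E : Set H) := by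
      rw [hD', Subgroup.closure_le]; rintro y (rfl | rfl) <;> assumption
    set M := E ⊔ D' with hMdef
    have hMG : M ≤ G := sup_le (hEQ.trans hQG) (by
      rw [hD', Subgroup.closure_le]; rintro y (rfl | rfl) <;> assumption)
    have hgenM : G ≤ M ⊔ Subgroup.zpowers (t 2) := by
      rw [← hG01, iv, Subgroup.closure_le]
      rintro y ⟨j, p, r, rfl⟩
      have hm2 : t 2 ∈ M ⊔ Subgroup.zpowers (t 2) :=
        Subgroup.mem_sup_right (Subgroup.mem_zpowers _)
      have : j = 0 ∨ j = 1 ∨ j = 2 ∨ j = 3 ∨ j = 4 := by push_cast at r; omega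
      rcases this with rfl | rfl | rfl | rfl | rfl
      · have hm : a ∈ M ⊔ Subgroup.zpowers (t 2) :=
          Subgroup.mem_sup_left (Subgroup.mem_sup_right (Subgroup.subset_closure (Or.inl rfl)))
        rcases hag with h1 | h1
        · exact h1 ▸ hm
        · rw [show t 0 = a * t 2 by rw [h1, mul_assoc, hF.sq, mul_one]]
          exact mul_mem hm hm2
      · rw [show t 1 = t 1 * t 2 * t 2 by rw [mul_assoc, hF.sq, mul_one]]
        exact mul_mem (Subgroup.mem_sup_left (Subgroup.mem_sup_left (Or.inr (Or.inr (Or.inl rfl)))))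
          hm2
      · exact hm2
      · rw [show t 3 = t 2 * t 3 * t 2 by
          rw [(c 2 3 (by norm_num) (by norm_num)).eq, mul_assoc, hF.sq, mul_one]]
        exact mul_mem (Subgroup.mem_sup_left (Subgroup.mem_sup_left (Or.inr (Or.inl rfl)))) hm2
      · exact Subgroup.mem_sup_left (Subgroup.mem_sup_right (Subgroup.subset_closure (Or.inr rfl)))
    have hMcard : Nat.card M = 24 ∧ t 2 ∉ M := by
      have hd6 : Nat.card D' ≤ 6 := closure_pair_card_le ha2 (hF.sq 4) (by norm_num) hab
      have hp1 := Modules.card_sup_mul_card_inf hD'n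
      rw [sup_comm, ← hMdef, hEcard] at hp1
      have hn2 : Subgroup.zpowers (t 2) ≤ Subgroup.normalizer (M : Set H) := by
        rw [Subgroup.zpowers_le]
        refine Subgroup.centralizer_le_normalizer _ fun e he => ?_
        exact (hu e (hMG he)).eq
      have hp2 := Modules.card_sup_mul_card_inf hn2
      have heq : Subgroup.zpowers (t 2) ⊔ M = G :=
        le_antisymm (sup_le (Subgroup.zpowers_le.mpr (ht 2 (by norm_num) (by norm_num))) hMG)
          (by rw [sup_comm]; exact hgenM)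
      rw [heq, hcard48, Nat.card_zpowers,
        orderOf_eq_prime (by rw [pow_two]; exact hF.sq 2) ht2] at hp2
      have hpos1 : 0 < Nat.card ↥(D' ⊓ E) := Nat.card_pos
      have hpos2 : 0 < Nat.card ↥(Subgroup.zpowers (t 2) ⊓ M) := Nat.card_pos
      have hM24 : Nat.card M = 24 := by nlinarith
      refine ⟨hM24, fun hm => ?_⟩
      rw [inf_eq_left.mpr (Subgroup.zpowers_le.mpr hm), Nat.card_zpowers,
        orderOf_eq_prime (by rw [pow_two]; exact hF.sq 2) ht2, hM24] at hp2
      omega
    have hC : M ⊓ Subgroup.centralizer (E : Set H) ≤ E := by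
      rintro g ⟨hgM, hgc⟩
      have hgQ : g ∈ QH := by
        refine hcent ⟨hMG hgM, ?_⟩
        rw [← hQiv]
        intro y hy
        induction hy using Subgroup.closure_induction with
        | mem y hy =>
          obtain ⟨j, p, r, rfl⟩ := hy
          have h2 : Commute g (t 2) := hu g (hMG hgM)
          have h12 : Commute g (t 1 * t 2) := (hgc _ (Or.inr (Or.inr (Or.inl rfl)))).symm
          have h23 : Commute g (t 2 * t 3) := (hgc _ (Or.inr (Or.inl rfl))).symm
          have : j = 1 ∨ j = 2 ∨ j = 3 := by push_cast at r; omega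
          rcases this with rfl | rfl | rfl
          · have h := h12.mul_right h2
            rw [mul_assoc, hF.sq, mul_one] at h
            exact h.symm.eq
          · exact h2.symm.eq
          · have h := h2.mul_right h23
            rw [← mul_assoc, hF.sq, one_mul] at h
            exact h.symm.eq
        | one => rw [one_mul, mul_one]
        | mul x y _ _ hx hy => exact (Commute.mul_left hx hy).eq
        | inv x _ hx => exact (Commute.inv_left hx).eq
      rw [← hQiv] at hgQ
      by_contra hgE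
      refine hMcard.2 ?_
      have hEM : E ≤ M := le_sup_left
      have key : ∀ e ∈ E, g = e * t 2 → t 2 ∈ M := by
        intro e he h
        rw [show t 2 = e⁻¹ * g by rw [h, inv_mul_cancel_left]]
        exact mul_mem (inv_mem (hEM he)) hgM
      rcases mem_iv_three hF hgQ with h1 | h1 | h1 | h1 | h1 | h1 | h1 | h1
      · exact absurd (h1 ▸ one_mem E) hgE
      · exact key _ (Or.inr (Or.inr (Or.inl rfl))) (by rw [h1, mul_assoc, hF.sq, mul_one])
      · exact h1 ▸ hgM
      · exact key _ (Or.inr (Or.inl rfl)) (by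
          rw [h1, (c 2 3 (by norm_num) (by norm_num)).eq, mul_assoc, hF.sq, mul_one])
      · exact absurd (h1.symm ▸ Or.inr (Or.inr (Or.inl rfl))) hgE
      · exact absurd (h1.symm ▸ Or.inr (Or.inr (Or.inr rfl))) hgE
      · exact absurd (h1.symm ▸ Or.inr (Or.inl rfl)) hgE
      · exact key (t 1 * t 3) (Or.inr (Or.inr (Or.inr rfl))) (by
          rw [h1, (c 2 3 (by norm_num) (by norm_num)).eq, ← mul_assoc])
    obtain ⟨e⟩ := nonempty_equiv_perm_four (M := M) (E := E) le_sup_left
      (Subgroup.mem_sup_right (Subgroup.subset_closure (Or.inl rfl)))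
      (Subgroup.mem_sup_right (Subgroup.subset_closure (Or.inr rfl))) ha2 (hF.sq 4) hab
      (sup_le Subgroup.le_normalizer hD'n) hEcard hMcard.1 le_rfl hC
    exact nonempty_equiv_prod hMG (ht 2 (by norm_num) (by norm_num)) ht2 (hF.sq 2) hMcard.2 hu
      hgenM e

end Cfsg.Agent.SimsLocal
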