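import Cfsg.Agent.SimsLocal.Frame

/-! The possible lengths of a chain of translates in a simple group. -/

set_option autoImplicit false

namespace Cfsg.Agent.SimsLocal.Frame

open scoped commutatorElement

variable {H : Type*} [Group H] {φ : MulAut H} {t : ℤ → H} {s : ℕ}

theorem mem_iv_of_conj (i : ℤ) (l : ℕ) {K : Subgroup H} {x : H}
    (h : ∀ j, i ≤ j → j < i + l → x * t j * x⁻¹ ∈ K) {g : H} (hg : g ∈ iv t i l) :
    x * g * x⁻¹ ∈ K := by
  induction hg using Subgroup.closure_induction with
  | mem y hy => obtain ⟨j, a, b, rfl⟩ := hy; exact h j a b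
  | one => simp
  | mul y z _ _ hy hz => simpa [mul_assoc] using mul_mem hy hz
  | inv y _ hy => simpa [mul_assoc] using inv_mem hy

theorem mem_normalizer_iv [Finite H] {i : ℤ} {l : ℕ} {x : H}
    (h : ∀ j, i ≤ j → j < i + l → x * t j * x⁻¹ ∈ iv t i l) :
    x ∈ Subgroup.normalizer (iv t i l : Set H) := by
  have hle : (iv t i l).map (MulAut.conj x).toMonoidHom ≤ iv t i l := by
    rintro _ ⟨g, hg, rfl⟩
    exact mem_iv_of_conj i l h hg
  exact Subgroup.mem_normalizer_iff_map_conj_eq.mpr
    (Subgroup.eq_of_le_of_card_ge hle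
      (Subgroup.card_map_of_injective (MulAut.conj x).injective).ge)

theorem not_two_sq (h : Frame φ t s) {a b : ℤ} (hc : ¬ Commute (t a) (t b)) {v : H}
    (hva : Commute v (t a)) (hvb : Commute v (t b)) (hv : v * v = 1)
    (hsq : (t a * t b * v) * (t a * t b * v) = 1) : False := by
  apply hc
  have h1 : (t a * t b) * (t a * t b) = 1 := by
    have hcv : Commute v (t a * t b) := hva.mul_right hvb
    have : (t a * t b * v) * (t a * t b * v) = (t a * t b) * (t a * t b) * (v * v) := by
      rw [hcv.symm.mul_mul_mul_comm]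
    rwa [this, hv, mul_one] at hsq
  calc t a * t b = (t a * t b)⁻¹ := eq_inv_of_mul_eq_one_left h1
    _ = t b * t a := by rw [mul_inv_rev, h.inv, h.inv]

/-- In a non-abelian simple group generated by the translates `0, …, s + 1` the length is three
or four. -/
theorem length_cases (h : Frame φ t s) [Finite H] [IsSimpleGroup H]
    (hna : ¬ IsMulCommutative H) {d : ℕ} (hd : IsDist t d) (hds : d + 1 ≤ s)
    (htop : iv t 0 (s + 2) = ⊤) : (s = 3 ∧ d = 2) ∨ (s = 4 ∧ d = 3) := by
  have hs2 := h.lt_two_mul hd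
  have hd1 := hd.1
  obtain ⟨hz1, hz2, h3⟩ := h.z_bounds hd hds
  have hL : 2 * d ≤ s + 2 := by
    by_contra hL
    push Not at hL
    have hcomm : t ((s : ℤ) - d + 2) ∈ Subgroup.center H := by
      rw [Subgroup.mem_center_iff]
      intro g
      have hg : g ∈ iv t 0 (s + 2) := htop ▸ Subgroup.mem_top g
      exact (commute_iv hg fun j a b =>
        h.commute_of_lt hd (by push_cast at b; omega) (by push_cast at b; omega)).eq
    have hbot : Subgroup.center H = ⊥ := by
      rcases (inferInstance : (Subgroup.center H).Normal).eq_bot_or_eq_top with hb | hb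
      · exact hb
      · exact absurd ⟨⟨fun a b => (Subgroup.mem_center_iff.mp (hb ▸ Subgroup.mem_top b) a)⟩⟩ hna
    rw [hbot, Subgroup.mem_bot] at hcomm
    have h1 := h.card ((s : ℤ) - d + 2) 1 (by omega)
    rw [pow_one] at h1
    have h2 : iv t ((s : ℤ) - d + 2) 1 = ⊥ := by
      rw [iv, Subgroup.closure_eq_bot_iff]
      rintro x ⟨j, a, b, rfl⟩
      obtain rfl : j = (s : ℤ) - d + 2 := by omega
      exact hcomm
    rw [h2, Subgroup.card_bot] at h1
    exact absurd h1 (by norm_num)
  have hcases : (s = 3 ∧ d = 2) ∨ (s = 4 ∧ d = 3) ∨ (s = 6 ∧ d = 4) := by omega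
  rcases hcases with h' | h' | ⟨rfl, rfl⟩
  · exact Or.inl h'
  · exact Or.inr h'
  exfalso
  -- the exceptional length six
  norm_num at hz2
  have hz26 : ⁅t 2, t 6⁆ = t 4 := by
    rcases h.eq_of_mem_one (by norm_num) hz2 with h1 | h1
    · rw [commutatorElement_eq_one_iff_commute] at h1
      exact absurd h1 (h.not_commute hd 2)
    · exact h1
  have hsh : ∀ r : ℤ, 2 + r ≥ 0 → ⁅t (2 + r), t (6 + r)⁆ = t (4 + r) := by
    intro r _
    rcases Int.le_total 0 r with hr | hr
    · obtain ⟨m, rfl⟩ := Int.eq_ofNat_of_zero_le hr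
      rw [← h.commutator_shift, hz26, h.pow_shift]
    · obtain ⟨m, hm⟩ := Int.eq_ofNat_of_zero_le (show 0 ≤ -r by omega)
      apply (φ ^ m).injective
      rw [h.commutator_shift, h.pow_shift, show 2 + r + (m : ℤ) = 2 by omega,
        show 6 + r + (m : ℤ) = 6 by omega, show 4 + r + (m : ℤ) = 4 by omega, hz26]
  have hc15 : ¬ Commute (t 1) (t 5) := h.not_commute hd 1
  have hvc : ∀ v ∈ iv t 2 3, Commute v (t 1) ∧ Commute v (t 5) ∧ v * v = 1 := by
    intro v hv
    refine ⟨commute_iv hv fun j a b => h.commute_of_lt hd (by omega) (by omega),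
      commute_iv hv fun j a b => h.commute_of_lt hd (by omega) (by omega), ?_⟩
    induction hv using Subgroup.closure_induction with
    | mem x hx => obtain ⟨j, -, -, rfl⟩ := hx; exact h.sq j
    | one => simp
    | mul x y hx hy ihx ihy =>
      have hxy : Commute x y := commute_iv_iv hx hy fun a b _ _ _ _ =>
        h.commute_of_lt hd (by omega) (by omega)
      rw [hxy.symm.mul_mul_mul_comm, ihx, ihy, mul_one]
    | inv x _ ihx => rw [← mul_inv_rev, ihx, inv_one]
  -- the outer translates normalise the middle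
  have hE1 : t 6 * t 1 * (t 6)⁻¹ ∈ iv t 1 4 := by
    have hc := h.commutator_mem (i := 1) (j := 6) (l := 4) (by norm_num) (by norm_num)
    norm_num at hc
    have heq : t 6 * t 1 * (t 6)⁻¹ = t 1 * ⁅t 1, t 6⁆ := by
      rw [commutatorElement_def, ← mul_assoc, ← mul_assoc, ← mul_assoc, h.sq, one_mul, h.inv 1]
    rcases h.mul_mem_right (i := 2) (l := 3) (by norm_num) hc with h1 | h1
    · rw [heq]
      exact mul_mem (mem_iv le_rfl (by norm_num)) (iv_mono (by norm_num) (by norm_num) h1)
    · exfalso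
      norm_num at h1
      set v := ⁅t 1, t 6⁆ * t 5 with hv
      obtain ⟨hv1, hv5, hv2⟩ := hvc v h1
      refine h.not_two_sq hc15 hv1 hv5 hv2 ?_
      have he : t 1 * t 5 * v = t 6 * t 1 * (t 6)⁻¹ := by
        rw [heq, mul_assoc, ← hv5.eq, hv, mul_assoc, h.sq, mul_one]
      rw [he]
      calc t 6 * t 1 * (t 6)⁻¹ * (t 6 * t 1 * (t 6)⁻¹) = t 6 * (t 1 * t 1) * (t 6)⁻¹ := by group
        _ = 1 := by rw [h.sq]; group
  have hE5 : t 0 * t 5 * (t 0)⁻¹ ∈ iv t 2 4 := by
    have hc := h.commutator_mem (i := 0) (j := 5) (l := 4) (by norm_num) (by norm_num)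
    norm_num at hc
    have heq : t 0 * t 5 * (t 0)⁻¹ = ⁅t 0, t 5⁆ * t 5 := by
      rw [commutatorElement_def, inv_mul_cancel_right]
    rcases h.mul_mem_left (i := 1) (l := 3) (by norm_num) hc with h1 | h1
    · norm_num at h1
      rw [heq]
      exact mul_mem (iv_mono le_rfl (by norm_num) h1) (mem_iv (by norm_num) (by norm_num))
    · exfalso
      norm_num at h1
      set v := t 1 * ⁅t 0, t 5⁆ with hv
      obtain ⟨hv1, hv5, hv2⟩ := hvc v h1
      refine h.not_two_sq hc15 hv1 hv5 hv2 ?_
      have he : t 1 * t 5 * v = t 0 * t 5 * (t 0)⁻¹ := by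
        rw [heq, mul_assoc, ← hv5.eq, hv, ← mul_assoc, ← mul_assoc, h.sq, one_mul]
      rw [he]
      calc t 0 * t 5 * (t 0)⁻¹ * (t 0 * t 5 * (t 0)⁻¹) = t 0 * (t 5 * t 5) * (t 0)⁻¹ := by group
        _ = 1 := by rw [h.sq]; group
  have hn0 : t 0 ∈ Subgroup.normalizer (iv t 2 4 : Set H) := by
    refine mem_normalizer_iv fun j a b => ?_
    have : j = 2 ∨ j = 3 ∨ j = 4 ∨ j = 5 := by push_cast at b; omega
    rcases this with rfl | rfl | rfl | rfl
    · rw [(h.commute_of_lt hd (i := 0) (j := 2) (by norm_num) (by norm_num)).eq,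
        mul_inv_cancel_right]
      exact mem_iv (by norm_num) (by norm_num)
    · rw [(h.commute_of_lt hd (i := 0) (j := 3) (by norm_num) (by norm_num)).eq,
        mul_inv_cancel_right]
      exact mem_iv (by norm_num) (by norm_num)
    · have h1 := hsh (-2) (by norm_num)
      norm_num at h1
      rw [show t 0 * t 4 * (t 0)⁻¹ = ⁅t 0, t 4⁆ * t 4 by
        rw [commutatorElement_def, inv_mul_cancel_right], h1]
      exact mul_mem (mem_iv (by norm_num) (by norm_num)) (mem_iv (by norm_num) (by norm_num))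
    · exact hE5
  have hn6 : t 6 ∈ Subgroup.normalizer (iv t 1 4 : Set H) := by
    refine mem_normalizer_iv fun j a b => ?_
    have : j = 1 ∨ j = 2 ∨ j = 3 ∨ j = 4 := by push_cast at b; omega
    rcases this with rfl | rfl | rfl | rfl
    · exact hE1
    · rw [show t 6 * t 2 * (t 6)⁻¹ = ⁅t 2, t 6⁆⁻¹ * t 2 by
        rw [commutatorElement_inv, commutatorElement_def, inv_mul_cancel_right], hz26]
      exact mul_mem ((iv t 1 4).inv_mem (mem_iv (by norm_num) (by norm_num)))
        (mem_iv (by norm_num) (by norm_num))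
    · rw [(h.commute_of_lt hd (i := 6) (j := 3) (by norm_num) (by norm_num)).eq,
        mul_inv_cancel_right]
      exact mem_iv (by norm_num) (by norm_num)
    · rw [(h.commute_of_lt hd (i := 6) (j := 4) (by norm_num) (by norm_num)).eq,
        mul_inv_cancel_right]
      exact mem_iv (by norm_num) (by norm_num)
  have hn7 : t 7 ∈ Subgroup.normalizer (iv t 2 4 : Set H) := by
    have h1 : φ (t 6) ∈ (Subgroup.normalizer (iv t 1 4 : Set H)).map φ.toMonoidHom := ⟨_, hn6, rfl⟩
    rw [(iv t 1 4).map_equiv_normalizer_eq φ] at h1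
    rw [h.shift] at h1
    norm_num at h1
    have h2 : (iv t 2 4 : Set H) = φ '' (iv t 1 4 : Set H) := by
      rw [show iv t 2 4 = (iv t 1 4).map φ.toMonoidHom from (h.map_iv 1 4).symm]
      rfl
    rw [h2]
    exact h1
  have hall : Subgroup.normalizer (iv t 2 4 : Set H) = ⊤ := by
    rw [eq_top_iff, ← htop, iv, Subgroup.closure_le]
    rintro x ⟨j, a, b, rfl⟩
    have : j = 0 ∨ j = 1 ∨ j = 6 ∨ j = 7 ∨ (2 ≤ j ∧ j < 6) := by push_cast at b; omega
    rcases this with rfl | rfl | rfl | rfl | ⟨p1, p2⟩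
    · exact hn0
    · exact (le_normalizer_left h) (mem_iv le_rfl (by norm_num))
    · exact (le_normalizer_right h) (mem_iv (by norm_num) (by norm_num))
    · exact hn7
    · exact Subgroup.le_normalizer (mem_iv p1 (by push_cast; omega))
  have hnorm : (iv t 2 4).Normal := Subgroup.normalizer_eq_top_iff.mp hall
  have hcard := h.card 2 4 (by norm_num)
  rcases hnorm.eq_bot_or_eq_top with hb | hb
  · rw [hb, Subgroup.card_bot] at hcard
    exact absurd hcard (by norm_num)
  · have hmem : t 1 ∈ iv t 2 4 := hb ▸ Subgroup.mem_top _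
    exact h.not_mem (i := 1) (l := 4) (by norm_num) hmem
where
  le_normalizer_left (h : Frame φ t 6) : iv t 1 5 ≤ Subgroup.normalizer (iv t 2 4 : Set H) := by
    have hi : ((iv t 2 4).subgroupOf (iv t 1 5)).index = 2 :=
      h.relIndex_right (i := 1) (l := 4) (by norm_num)
    exact (Subgroup.normal_subgroupOf_iff_le_normalizer
      (iv_mono (by norm_num) (by norm_num))).mp (Subgroup.normal_of_index_eq_two hi)
  le_normalizer_right (h : Frame φ t 6) : iv t 2 5 ≤ Subgroup.normalizer (iv t 2 4 : Set H) := by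
    have hi : ((iv t 2 4).subgroupOf (iv t 2 5)).index = 2 :=
      h.relIndex_left (i := 2) (l := 4) (by norm_num)
    exact (Subgroup.normal_subgroupOf_iff_le_normalizer
      (iv_mono le_rfl (by norm_num))).mp (Subgroup.normal_of_index_eq_two hi)

end Cfsg.Agent.SimsLocal.Frame
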