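import Mathlib

/-!
Chains of 2-subgroups generated by the translates of an involution under an automorphism.
-/

set_option autoImplicit false

namespace Cfsg.Agent.SimsLocal

variable {H : Type*} [Group H]

/-- translate of a subgroup -/
def sh (φ : MulAut H) (i : ℤ) (K : Subgroup H) : Subgroup H := K.map (φ ^ i).toMonoidHom

theorem sh_mono (φ : MulAut H) (i : ℤ) {K L : Subgroup H} (h : K ≤ L) : sh φ i K ≤ sh φ i L :=
  Subgroup.map_mono h

theorem sh_zero (φ : MulAut H) (K : Subgroup H) : sh φ 0 K = K := by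
  ext x; simp [sh]

theorem sh_sh (φ : MulAut H) (i j : ℤ) (K : Subgroup H) : sh φ i (sh φ j K) = sh φ (i + j) K := by
  rw [sh, sh, sh, Subgroup.map_map]
  congr 1
  ext x
  simp [zpow_add]

theorem sh_inf (φ : MulAut H) (i : ℤ) (K L : Subgroup H) :
    sh φ i (K ⊓ L) = sh φ i K ⊓ sh φ i L :=
  Subgroup.map_inf _ _ _ (φ ^ i).injective

theorem sh_sup (φ : MulAut H) (i : ℤ) (K L : Subgroup H) :
    sh φ i (K ⊔ L) = sh φ i K ⊔ sh φ i L :=
  Subgroup.map_sup _ _ _

theorem card_sh (φ : MulAut H) (i : ℤ) (K : Subgroup H) : Nat.card (sh φ i K) = Nat.card K :=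
  Subgroup.card_map_of_injective (φ ^ i).injective

theorem sh_le_sh_iff (φ : MulAut H) (i : ℤ) {K L : Subgroup H} : sh φ i K ≤ sh φ i L ↔ K ≤ L :=
  Subgroup.map_le_map_iff_of_injective (φ ^ i).injective

theorem relIndex_sh (φ : MulAut H) (i : ℤ) (K L : Subgroup H) :
    (sh φ i K).relIndex (sh φ i L) = K.relIndex L :=
  Subgroup.relIndex_map_map_of_injective _ _ (φ ^ i).injective

/-- If `K` is fixed and normalised by `A` then by all translates of `A`. -/
theorem sh_le_normalizer {φ : MulAut H} {K A : Subgroup H} (hK : sh φ 1 K = K)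
    (hA : A ≤ Subgroup.normalizer (K : Set H)) (i : ℤ) :
    sh φ i A ≤ Subgroup.normalizer (K : Set H) := by
  have hfix : ∀ j : ℤ, sh φ j K = K := by
    intro j
    induction j using Int.induction_on with
    | zero => exact sh_zero φ K
    | succ n ih => rw [← sh_sh, hK, ih]
    | pred n ih =>
      have h1 : sh φ (-(n : ℤ) - 1) (sh φ 1 K) = sh φ (-(n : ℤ)) K := by
        rw [sh_sh, sub_add_cancel]
      rw [hK, ih] at h1
      exact h1
  have h : sh φ i (Subgroup.normalizer (K : Set H)) = Subgroup.normalizer (K : Set H) := by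
    conv_rhs => rw [← hfix i]
    exact K.map_equiv_normalizer_eq (φ ^ i)
  exact h ▸ sh_mono φ i hA

/-- the successive intersections -/
def P (φ : MulAut H) (S : Subgroup H) : ℕ → Subgroup H
  | 0 => S
  | k + 1 => P φ S k ⊓ sh φ 1 (P φ S k)

theorem P_succ_le (φ : MulAut H) (S : Subgroup H) (k : ℕ) : P φ S (k + 1) ≤ P φ S k := inf_le_left

theorem P_le (φ : MulAut H) (S : Subgroup H) : ∀ k, P φ S k ≤ S
  | 0 => le_rfl
  | k + 1 => (P_succ_le φ S k).trans (P_le φ S k)

variable [Finite H]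

theorem sup_eq_of_relIndex_two {A B L : Subgroup H} (hA : A.relIndex L = 2) (hAL : A ≤ L)
    (hBL : B ≤ L) (hne : ¬ B ≤ A) : A ⊔ B = L := by
  have hle : A ⊔ B ≤ L := sup_le hAL hBL
  refine le_antisymm hle (Subgroup.relIndex_eq_one.mp ?_)
  have h := Subgroup.relIndex_mul_relIndex A (A ⊔ B) L le_sup_left hle
  rw [hA] at h
  rcases (Nat.dvd_prime Nat.prime_two).mp (Dvd.intro_left _ h) with h1 | h1
  · exact h1
  · exfalso
    rw [h1] at h
    have h2 : A.relIndex (A ⊔ B) = 1 := by omega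
    exact hne (le_sup_right.trans (Subgroup.relIndex_eq_one.mp h2))

theorem le_normalizer_of_relIndex_two {A L : Subgroup H} (hA : A.relIndex L = 2) (hAL : A ≤ L) :
    L ≤ Subgroup.normalizer (A : Set H) := by
  have h : (A.subgroupOf L).index = 2 := hA
  exact (Subgroup.normal_subgroupOf_iff_le_normalizer hAL).mp
    (Subgroup.normal_of_index_eq_two h)

/-- The hypotheses on the automorphism and the 2-group. -/
structure Setup (φ : MulAut H) (S : Subgroup H) (s : ℕ) : Prop where
  card_S : Nat.card S = 2 ^ s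
  first : (P φ S 1).relIndex S = 2
  core : ∀ K : Subgroup H, K ≤ S → sh φ 1 K = K → S ≤ Subgroup.normalizer (K : Set H) → K = ⊥

variable {φ : MulAut H} {S : Subgroup H} {s : ℕ}

theorem Setup.step (h : Setup φ S s) : ∀ k, k < s →
    Nat.card (P φ S k) = 2 ^ (s - k) ∧ (P φ S (k + 1)).relIndex (P φ S k) = 2 ∧
    (∀ K : Subgroup H, K ≤ S → sh φ 1 K = K → P φ S k ≤ Subgroup.normalizer (K : Set H) → K = ⊥) := by
  intro k
  induction k with
  | zero => exact fun _ => ⟨h.card_S, h.first, h.core⟩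
  | succ k ih =>
    intro hk
    obtain ⟨hc, hr, hcore⟩ := ih (by omega)
    have hcard : Nat.card (P φ S (k + 1)) = 2 ^ (s - (k + 1)) := by
      have h1 := Subgroup.relIndex_mul_relIndex ⊥ (P φ S (k + 1)) (P φ S k) bot_le (P_succ_le φ S k)
      rw [Subgroup.relIndex_bot_left, Subgroup.relIndex_bot_left, hr, hc,
        show s - k = s - (k + 1) + 1 by omega, pow_succ] at h1
      omega
    have hne : P φ S (k + 1) ≠ ⊥ := by
      intro e
      rw [e, Subgroup.card_bot] at hcard
      have := Nat.one_lt_two_pow (show s - (k + 1) ≠ 0 by omega)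
      omega
    have hcore' : ∀ K : Subgroup H, K ≤ S → sh φ 1 K = K →
        P φ S (k + 1) ≤ Subgroup.normalizer (K : Set H) → K = ⊥ := by
      intro K hKS hK hn
      refine hcore K hKS hK ?_
      have h2 : sh φ (-1) (P φ S (k + 1)) ≤ P φ S k := by
        have := sh_mono φ (-1) (inf_le_right : P φ S (k + 1) ≤ sh φ 1 (P φ S k))
        rwa [sh_sh, neg_add_cancel, sh_zero] at this
      have hne2 : ¬ sh φ (-1) (P φ S (k + 1)) ≤ P φ S (k + 1) := by
        intro hle
        have he := Subgroup.eq_of_le_of_card_ge hle (by rw [card_sh])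
        have hfix : sh φ 1 (P φ S (k + 1)) = P φ S (k + 1) := by
          conv_lhs => rw [← he, sh_sh, add_neg_cancel, sh_zero]
        exact hne (hcore _ (P_le φ S _) hfix
          (le_normalizer_of_relIndex_two hr (P_succ_le φ S k)))
      rw [← sup_eq_of_relIndex_two hr (P_succ_le φ S k) h2 hne2]
      exact sup_le hn (sh_le_normalizer hK hn _)
    refine ⟨hcard, ?_, hcore'⟩
    have hle : (P φ S (k + 2)).relIndex (P φ S (k + 1)) ≤ 2 := by
      show (P φ S (k + 1) ⊓ sh φ 1 (P φ S (k + 1))).relIndex (P φ S (k + 1)) ≤ 2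
      rw [Subgroup.inf_relIndex_left]
      rw [← hr, ← relIndex_sh φ 1 (P φ S (k + 1)) (P φ S k)]
      exact Subgroup.relIndex_le_of_le_right (inf_le_right)
        (by rw [relIndex_sh, hr]; omega)
    have hne1 : (P φ S (k + 2)).relIndex (P φ S (k + 1)) ≠ 1 := by
      intro e
      have h1 : P φ S (k + 1) ≤ sh φ 1 (P φ S (k + 1)) :=
        (Subgroup.relIndex_eq_one.mp e).trans inf_le_right
      exact hne (hcore' _ (P_le φ S _) (Subgroup.eq_of_le_of_card_ge h1 (by rw [card_sh])).symm
        Subgroup.le_normalizer)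
    have hpos : (P φ S (k + 2)).relIndex (P φ S (k + 1)) ≠ 0 := Subgroup.FiniteIndex.index_ne_zero
    show (P φ S (k + 2)).relIndex (P φ S (k + 1)) = 2
    omega

theorem Setup.exists_gen (h : Setup φ S s) (hs : 1 ≤ s) :
    ∃ e : H, e ≠ 1 ∧ e * e = 1 ∧
      ∀ l, 1 ≤ l → l ≤ s →
        P φ S (s - l) = Subgroup.closure {x | ∃ j : ℕ, j < l ∧ x = (φ ^ (-(j : ℤ))) e} := by
  obtain ⟨hc, -, -⟩ := h.step (s - 1) (by omega)
  rw [show s - (s - 1) = 1 by omega, pow_one] at hc
  obtain ⟨e, he, he1⟩ : ∃ e ∈ P φ S (s - 1), e ≠ 1 := by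
    by_contra hh
    push Not at hh
    rw [(Subgroup.eq_bot_iff_forall _).mpr hh, Subgroup.card_bot] at hc
    exact absurd hc (by norm_num)
  have hz : Subgroup.zpowers e = P φ S (s - 1) := by
    refine Subgroup.eq_of_le_of_card_ge (Subgroup.zpowers_le.mpr he) ?_
    rw [hc, Nat.card_zpowers]
    have h1 : orderOf e ≠ 1 := fun h1 => he1 (orderOf_eq_one_iff.mp h1)
    have := orderOf_pos e
    omega
  have he2 : e * e = 1 := by
    have h2 : (⟨e, he⟩ : P φ S (s - 1)) ^ Nat.card (P φ S (s - 1)) = 1 := pow_card_eq_one'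
    rw [hc] at h2
    simpa [pow_two] using congrArg Subtype.val h2
  refine ⟨e, he1, he2, fun l hl => ?_⟩
  induction l, hl using Nat.le_induction with
  | base =>
    intro _
    rw [← hz, Subgroup.zpowers_eq_closure]
    congr 1
    ext x
    constructor
    · rintro rfl; exact ⟨0, by norm_num, by simp⟩
    · rintro ⟨j, hj, rfl⟩
      obtain rfl : j = 0 := by omega
      simp
  | succ l hl ih =>
    intro hls
    have hih := ih (by omega)
    obtain ⟨-, hr, hcore⟩ := h.step (s - (l + 1)) (by omega)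
    have hk : s - (l + 1) + 1 = s - l := by omega
    rw [hk] at hr
    have hsub : sh φ (-1) (P φ S (s - l)) ≤ P φ S (s - (l + 1)) := by
      rw [← hk]
      have := sh_mono φ (-1)
        (inf_le_right : P φ S (s - (l + 1) + 1) ≤ sh φ 1 (P φ S (s - (l + 1))))
      rwa [sh_sh, neg_add_cancel, sh_zero] at this
    have hle : P φ S (s - l) ≤ P φ S (s - (l + 1)) := by rw [← hk]; exact P_succ_le φ S _
    have hnot : ¬ sh φ (-1) (P φ S (s - l)) ≤ P φ S (s - l) := by
      intro hh
      have he' := Subgroup.eq_of_le_of_card_ge hh (by rw [card_sh])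
      have hfix : sh φ 1 (P φ S (s - l)) = P φ S (s - l) := by
        conv_lhs => rw [← he', sh_sh, add_neg_cancel, sh_zero]
      have hb := hcore _ (P_le φ S _) hfix (le_normalizer_of_relIndex_two hr hle)
      rw [hb] at hih
      have : e ∈ (⊥ : Subgroup H) := hih ▸ Subgroup.subset_closure ⟨0, by omega, by simp⟩
      exact he1 (Subgroup.mem_bot.mp this)
    rw [← sup_eq_of_relIndex_two hr hle hsub hnot, hih, sh, MonoidHom.map_closure,
      ← Subgroup.closure_union]
    congr 1
    ext x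
    constructor
    · rintro (⟨j, hj, rfl⟩ | ⟨_, ⟨j, hj, rfl⟩, rfl⟩)
      · exact ⟨j, by omega, rfl⟩
      · refine ⟨j + 1, by omega, ?_⟩
        show (φ ^ (-1 : ℤ)) ((φ ^ (-(j : ℤ))) e) = _
        rw [← MulAut.mul_apply, ← zpow_add]
        congr 2
        push_cast; ring
    · rintro ⟨j, hj, rfl⟩
      rcases Nat.lt_or_ge j l with h1 | h1
      · exact Or.inl ⟨j, h1, rfl⟩
      · obtain rfl : j = l := by omega
        refine Or.inr ⟨_, ⟨j - 1, by omega, rfl⟩, ?_⟩
        show (φ ^ (-1 : ℤ)) ((φ ^ (-((j - 1 : ℕ) : ℤ))) e) = _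
        rw [← MulAut.mul_apply, ← zpow_add]
        congr 2
        omega

end Cfsg.Agent.SimsLocal
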