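import Mathlib

/-!
Commutator calculus in a chain of translates of an involution.
-/

set_option autoImplicit false

namespace Cfsg.Agent.SimsLocal

open scoped commutatorElement

variable {H : Type*} [Group H]

/-- the subgroup generated by an interval of translates -/
def iv (t : ℤ → H) (i : ℤ) (l : ℕ) : Subgroup H :=
  Subgroup.closure {x | ∃ j : ℤ, i ≤ j ∧ j < i + l ∧ x = t j}

/-- A chain of translates. -/
structure Frame (φ : MulAut H) (t : ℤ → H) (s : ℕ) : Prop where
  shift : ∀ i, φ (t i) = t (i + 1)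
  sq : ∀ i, t i * t i = 1
  card : ∀ i l, l ≤ s → Nat.card (iv t i l) = 2 ^ l
  inter : ∀ i (l : ℕ), l + 2 ≤ s → iv t i (l + 1) ⊓ iv t (i + 1) (l + 1) = iv t (i + 1) l

variable {φ : MulAut H} {t : ℤ → H} {s : ℕ}

theorem mem_iv {i j : ℤ} {l : ℕ} (h1 : i ≤ j) (h2 : j < i + l) : t j ∈ iv t i l :=
  Subgroup.subset_closure ⟨j, h1, h2, rfl⟩

theorem iv_mono {i i' : ℤ} {l l' : ℕ} (h1 : i' ≤ i) (h2 : i + l ≤ i' + l') :
    iv t i l ≤ iv t i' l' :=
  Subgroup.closure_mono fun _ ⟨j, a, b, c⟩ => ⟨j, h1.trans a, by omega, c⟩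

theorem iv_zero (i : ℤ) : iv t i 0 = ⊥ := by
  rw [iv, Subgroup.closure_eq_bot_iff]
  rintro x ⟨j, a, b, -⟩
  exfalso; omega

theorem iv_succ (i : ℤ) (l : ℕ) : iv t i (l + 1) = Subgroup.zpowers (t i) ⊔ iv t (i + 1) l := by
  refine le_antisymm ((Subgroup.closure_le _).mpr ?_) (sup_le ?_ ?_)
  · rintro x ⟨j, a, b, rfl⟩
    rcases eq_or_lt_of_le a with h | h
    · subst h; exact Subgroup.mem_sup_left (Subgroup.mem_zpowers _)
    · exact Subgroup.mem_sup_right (mem_iv (by omega) (by push_cast at b; omega))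
  · exact Subgroup.zpowers_le.mpr (mem_iv le_rfl (by push_cast; omega))
  · exact iv_mono (by omega) (by push_cast; omega)

theorem commute_iv {i k : ℤ} {l : ℕ} {g : H} (hg : g ∈ iv t i l)
    (h : ∀ j, i ≤ j → j < i + l → Commute (t j) (t k)) : Commute g (t k) := by
  induction hg using Subgroup.closure_induction with
  | mem x hx => obtain ⟨j, a, b, rfl⟩ := hx; exact h j a b
  | one => exact Commute.one_left _
  | mul x y _ _ hx hy => exact hx.mul_left hy
  | inv x _ hx => exact hx.inv_left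

theorem commute_iv_iv {i k : ℤ} {l m : ℕ} {f g : H} (hf : f ∈ iv t i l) (hg : g ∈ iv t k m)
    (h : ∀ a b, i ≤ a → a < i + l → k ≤ b → b < k + m → Commute (t a) (t b)) : Commute f g := by
  induction hg using Subgroup.closure_induction with
  | mem x hx =>
    obtain ⟨b, hb1, hb2, rfl⟩ := hx
    exact commute_iv hf fun a ha1 ha2 => h a b ha1 ha2 hb1 hb2
  | one => exact Commute.one_right _
  | mul x y _ _ hx hy => exact hx.mul_right hy
  | inv x _ hx => exact hx.inv_right

namespace Frame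

theorem inv (h : Frame φ t s) (i : ℤ) : (t i)⁻¹ = t i := inv_eq_of_mul_eq_one_right (h.sq i)

theorem map_iv (h : Frame φ t s) (i : ℤ) (l : ℕ) :
    (iv t i l).map φ.toMonoidHom = iv t (i + 1) l := by
  rw [iv, MonoidHom.map_closure, iv]
  congr 1
  ext x
  constructor
  · rintro ⟨_, ⟨j, a, b, rfl⟩, rfl⟩; exact ⟨j + 1, by omega, by omega, h.shift j⟩
  · rintro ⟨j, a, b, rfl⟩
    exact ⟨t (j - 1), ⟨j - 1, by omega, by omega, rfl⟩,
      (h.shift (j - 1)).trans (by rw [sub_add_cancel])⟩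

theorem pow_shift (h : Frame φ t s) (r : ℕ) : ∀ i, (φ ^ r) (t i) = t (i + r) := by
  induction r with
  | zero => simp
  | succ r ih =>
    intro i
    rw [pow_succ', MulAut.mul_apply, ih, h.shift]
    congr 1; push_cast; ring

theorem map_pow_iv (h : Frame φ t s) (r : ℕ) : ∀ (i : ℤ) (l : ℕ),
    (iv t i l).map (φ ^ r).toMonoidHom = iv t (i + r) l := by
  induction r with
  | zero => intro i l; ext x; simp
  | succ r ih =>
    intro i l
    rw [show i + ((r + 1 : ℕ) : ℤ) = i + r + 1 by push_cast; ring, ← h.map_iv, ← ih,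
      Subgroup.map_map]
    congr 1
    ext x
    simp [pow_succ', MulAut.mul_apply]

theorem commute_shift (h : Frame φ t s) {i j : ℤ} (hc : Commute (t i) (t j)) (r : ℕ) :
    Commute (t (i + r)) (t (j + r)) := by
  rw [← h.pow_shift, ← h.pow_shift]; exact hc.map (φ ^ r)

theorem commute_shift_iff (h : Frame φ t s) (i j r : ℤ) :
    Commute (t (i + r)) (t (j + r)) ↔ Commute (t i) (t j) := by
  suffices key : ∀ (a b : ℤ) (m : ℕ), Commute (t (a + m)) (t (b + m)) ↔ Commute (t a) (t b) by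
    rcases Int.le_total 0 r with hr | hr
    · obtain ⟨m, rfl⟩ := Int.eq_ofNat_of_zero_le hr; exact key i j m
    · obtain ⟨m, hm⟩ := Int.eq_ofNat_of_zero_le (show 0 ≤ -r by omega)
      have := key (i + r) (j + r) m
      rw [show i + r + (m : ℤ) = i by omega, show j + r + (m : ℤ) = j by omega] at this
      exact this.symm
  intro a b m
  refine ⟨fun hc => ?_, fun hc => h.commute_shift hc m⟩
  rw [← h.pow_shift, ← h.pow_shift] at hc
  have := hc.map (φ ^ m)⁻¹
  simpa using this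

theorem commutator_shift (h : Frame φ t s) (i j : ℤ) (r : ℕ) :
    (φ ^ r) ⁅t i, t j⁆ = ⁅t (i + r), t (j + r)⁆ := by
  rw [map_commutatorElement, h.pow_shift, h.pow_shift]

theorem not_mem (h : Frame φ t s) {i : ℤ} {l : ℕ} (hl : l + 1 ≤ s) : t i ∉ iv t (i + 1) l := by
  intro hm
  have he : iv t i (l + 1) = iv t (i + 1) l := by
    rw [iv_succ]; exact sup_eq_right.mpr (Subgroup.zpowers_le.mpr hm)
  have h1 := h.card i (l + 1) hl
  rw [he, h.card (i + 1) l (by omega), pow_succ] at h1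
  have := Nat.two_pow_pos l
  omega

theorem relIndex_left (h : Frame φ t s) [Finite H] {i : ℤ} {l : ℕ} (hl : l + 1 ≤ s) :
    (iv t i l).relIndex (iv t i (l + 1)) = 2 := by
  have h1 := Subgroup.relIndex_mul_relIndex ⊥ (iv t i l) (iv t i (l + 1)) bot_le
    (iv_mono le_rfl (by push_cast; omega))
  rw [Subgroup.relIndex_bot_left, Subgroup.relIndex_bot_left, h.card i l (by omega),
    h.card i (l + 1) hl, pow_succ] at h1
  exact Nat.eq_of_mul_eq_mul_left (Nat.two_pow_pos l) h1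

theorem relIndex_right (h : Frame φ t s) [Finite H] {i : ℤ} {l : ℕ} (hl : l + 1 ≤ s) :
    (iv t (i + 1) l).relIndex (iv t i (l + 1)) = 2 := by
  have h1 := Subgroup.relIndex_mul_relIndex ⊥ (iv t (i + 1) l) (iv t i (l + 1)) bot_le
    (iv_mono (by omega) (by push_cast; omega))
  rw [Subgroup.relIndex_bot_left, Subgroup.relIndex_bot_left, h.card (i + 1) l (by omega),
    h.card i (l + 1) hl, pow_succ] at h1
  exact Nat.eq_of_mul_eq_mul_left (Nat.two_pow_pos l) h1

theorem mul_mem_left (h : Frame φ t s) [Finite H] {i : ℤ} {l : ℕ} (hl : l + 1 ≤ s) {g : H}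
    (hg : g ∈ iv t i (l + 1)) : g ∈ iv t (i + 1) l ∨ t i * g ∈ iv t (i + 1) l := by
  have hidx : ((iv t (i + 1) l).subgroupOf (iv t i (l + 1))).index = 2 := h.relIndex_right hl
  have hti : t i ∈ iv t i (l + 1) := mem_iv le_rfl (by push_cast; omega)
  have h2 := Subgroup.mul_mem_iff_of_index_two hidx (a := ⟨t i, hti⟩) (b := ⟨g, hg⟩)
  simp only [Subgroup.mem_subgroupOf, Subgroup.coe_mul] at h2
  by_cases hgm : g ∈ iv t (i + 1) l
  · exact Or.inl hgm
  · exact Or.inr (h2.mpr (iff_of_false (h.not_mem hl) hgm))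

theorem mul_mem_right (h : Frame φ t s) [Finite H] {i : ℤ} {l : ℕ} (hl : l + 1 ≤ s) {g : H}
    (hg : g ∈ iv t i (l + 1)) : g ∈ iv t i l ∨ g * t (i + l) ∈ iv t i l := by
  have hidx : ((iv t i l).subgroupOf (iv t i (l + 1))).index = 2 := h.relIndex_left hl
  have hti : t (i + l) ∈ iv t i (l + 1) := mem_iv (by omega) (by push_cast; omega)
  have hnot : t (i + l) ∉ iv t i l := by
    intro hm
    have he : iv t i (l + 1) = iv t i l := by
      refine le_antisymm ((Subgroup.closure_le _).mpr ?_) (iv_mono le_rfl (by push_cast; omega))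
      rintro x ⟨j, a, b, rfl⟩
      push_cast at b
      by_cases hj : j = i + l
      · subst hj; exact hm
      · exact mem_iv a (by omega)
    have h1 := h.card i (l + 1) hl
    rw [he, h.card i l (by omega), pow_succ] at h1
    have := Nat.two_pow_pos l
    omega
  have h2 := Subgroup.mul_mem_iff_of_index_two hidx (a := ⟨g, hg⟩) (b := ⟨t (i + l), hti⟩)
  simp only [Subgroup.mem_subgroupOf, Subgroup.coe_mul] at h2
  by_cases hgm : g ∈ iv t i l
  · exact Or.inl hgm
  · exact Or.inr (h2.mpr (iff_of_false hgm hnot))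

theorem eq_of_mem_one (h : Frame φ t s) [Finite H] (hs : 1 ≤ s) {i : ℤ} {g : H}
    (hg : g ∈ iv t i 1) : g = 1 ∨ g = t i := by
  rcases h.mul_mem_left (l := 0) (by omega) hg with h1 | h1 <;>
    rw [iv_zero, Subgroup.mem_bot] at h1
  · exact Or.inl h1
  · exact Or.inr (by rw [← mul_one (t i), ← h1, ← mul_assoc, h.sq, one_mul])

/-- `d` is the first distance of non-commuting translates. -/
def IsDist (t : ℤ → H) (d : ℕ) : Prop :=
  1 ≤ d ∧ ¬ Commute (t 0) (t d) ∧ ∀ k : ℕ, k < d → Commute (t 0) (t k)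

theorem commute_of_lt (h : Frame φ t s) {d : ℕ} (hd : IsDist t d) {i j : ℤ} (h1 : i - j < d)
    (h2 : j - i < d) : Commute (t i) (t j) := by
  rcases Int.le_total i j with hij | hij
  · obtain ⟨k, hk⟩ := Int.eq_ofNat_of_zero_le (show 0 ≤ j - i by omega)
    have := (h.commute_shift_iff 0 k i).mpr (hd.2.2 k (by omega))
    rwa [zero_add, show (k : ℤ) + i = j by omega] at this
  · obtain ⟨k, hk⟩ := Int.eq_ofNat_of_zero_le (show 0 ≤ i - j by omega)
    have := ((h.commute_shift_iff 0 k j).mpr (hd.2.2 k (by omega))).symm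
    rwa [zero_add, show (k : ℤ) + j = i by omega] at this

theorem not_commute (h : Frame φ t s) {d : ℕ} (hd : IsDist t d) (i : ℤ) :
    ¬ Commute (t i) (t (i + d)) := fun hc => hd.2.1 (by
  have := (h.commute_shift_iff 0 (d : ℤ) i).mp (by rwa [zero_add, add_comm (d : ℤ)])
  exact this)

theorem shrink_left (h : Frame φ t s) [Finite H] {d : ℕ} (hd : IsDist t d) {i : ℤ} {l : ℕ}
    (hls : l + 1 ≤ s) (hld : l + 1 ≤ 2 * d) {g : H} (hg : g ∈ iv t i (l + 1))
    (hc : Commute g (t (i + d))) : g ∈ iv t (i + 1) l := by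
  rcases h.mul_mem_left hls hg with h1 | h1
  · exact h1
  · exfalso
    have h2 : Commute (t i * g) (t (i + d)) :=
      commute_iv h1 fun j a b => h.commute_of_lt hd (by omega) (by omega)
    have h3 := h2.mul_left hc.inv_left
    rw [mul_inv_cancel_right] at h3
    exact h.not_commute hd i h3

theorem shrink_right (h : Frame φ t s) [Finite H] {d : ℕ} (hd : IsDist t d) {i : ℤ} {l : ℕ}
    (hls : l + 1 ≤ s) (hld : l + 1 ≤ 2 * d) {g : H} (hg : g ∈ iv t i (l + 1))
    (hc : Commute g (t (i + l - d))) : g ∈ iv t i l := by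
  rcases h.mul_mem_right hls hg with h1 | h1
  · exact h1
  · exfalso
    have h2 : Commute (g * t (i + l)) (t (i + l - d)) :=
      commute_iv h1 fun j a b => h.commute_of_lt hd (by omega) (by omega)
    have h3 := hc.inv_left.mul_left h2
    rw [inv_mul_cancel_left] at h3
    have h4 := h.not_commute hd (i + l - d)
    rw [sub_add_cancel] at h4
    exact h4 h3.symm

theorem shrink_left_iter (h : Frame φ t s) [Finite H] {d : ℕ} (hd : IsDist t d) :
    ∀ (n : ℕ) {i : ℤ} {l : ℕ}, l ≤ s → l ≤ 2 * d → ∀ {g : H}, g ∈ iv t i l →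
      (∀ j, i ≤ j → j < i + n → Commute g (t (j + d))) → g ∈ iv t (i + n) (l - n) := by
  intro n
  induction n with
  | zero => intro i l _ _ g hg _; simpa using hg
  | succ n ih =>
    intro i l hls hld g hg hc
    have h1 := ih hls hld hg fun j a b => hc j a (by push_cast; omega)
    rw [show i + ((n + 1 : ℕ) : ℤ) = i + n + 1 by push_cast; ring]
    rcases Nat.eq_zero_or_pos (l - n) with h0 | h0
    · rw [h0, iv_zero, Subgroup.mem_bot] at h1
      rw [h1]; exact one_mem _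
    · obtain ⟨m, hm⟩ : ∃ m, l - n = m + 1 := ⟨l - n - 1, by omega⟩
      rw [hm] at h1
      rw [show l - (n + 1) = m by omega]
      exact h.shrink_left hd (by omega) (by omega) h1 (hc _ (by omega) (by push_cast; omega))

theorem shrink_right_iter (h : Frame φ t s) [Finite H] {d : ℕ} (hd : IsDist t d) :
    ∀ (n : ℕ) {i : ℤ} {l : ℕ}, l ≤ s → l ≤ 2 * d → ∀ {g : H}, g ∈ iv t i l →
      (∀ j, i + l - n ≤ j → i ≤ j → j < i + l → Commute g (t (j - d))) → g ∈ iv t i (l - n) := by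
  intro n
  induction n with
  | zero => intro i l _ _ g hg _; simpa using hg
  | succ n ih =>
    intro i l hls hld g hg hc
    have h1 := ih hls hld hg fun j a b c => hc j (by push_cast; omega) b c
    rcases Nat.eq_zero_or_pos (l - n) with h0 | h0
    · rw [h0, iv_zero, Subgroup.mem_bot] at h1
      rw [h1]; exact one_mem _
    · obtain ⟨m, hm⟩ : ∃ m, l - n = m + 1 := ⟨l - n - 1, by omega⟩
      rw [hm] at h1
      rw [show l - (n + 1) = m by omega]
      exact h.shrink_right hd (by omega) (by omega) h1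
        (hc _ (by push_cast; omega) (by omega) (by omega))

theorem centre_le (h : Frame φ t s) [Finite H] {d : ℕ} (hd : IsDist t d) {l : ℕ} (hls : l ≤ s)
    (hdl : d ≤ l) (hld : l ≤ 2 * d) {g : H} (hg : g ∈ iv t 1 l)
    (hc : ∀ j : ℤ, 1 ≤ j → j ≤ l → Commute g (t j)) :
    g ∈ iv t ((l : ℤ) - d + 1) (2 * d - l) := by
  have h1 := h.shrink_left_iter hd (l - d) hls hld hg fun j a b => hc _ (by omega) (by omega)
  rw [show (1 : ℤ) + ((l - d : ℕ) : ℤ) = (l : ℤ) - d + 1 by omega,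
    show l - (l - d) = d by omega] at h1
  have h2 := h.shrink_right_iter hd (l - d) (by omega) (by omega) h1
    fun j a b c => hc _ (by omega) (by omega)
  rwa [show d - (l - d) = 2 * d - l by omega] at h2

theorem lt_two_mul (h : Frame φ t s) [Finite H] {d : ℕ} (hd : IsDist t d) : s < 2 * d := by
  by_contra hs
  push Not at hs
  haveI : Fact (Nat.Prime 2) := ⟨Nat.prime_two⟩
  have hd1 := hd.1
  have hp : IsPGroup 2 (iv t 1 (2 * d)) := IsPGroup.of_card (h.card 1 (2 * d) hs)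
  haveI : Nontrivial (iv t 1 (2 * d)) := by
    rw [← Finite.one_lt_card_iff_nontrivial, h.card 1 (2 * d) hs]
    exact Nat.one_lt_two_pow (by omega)
  haveI := hp.center_nontrivial
  obtain ⟨⟨⟨g, hg⟩, hgc⟩, hg1⟩ := exists_ne (1 : Subgroup.center (iv t 1 (2 * d)))
  have h2 := h.centre_le hd hs (by omega) le_rfl hg fun j a b =>
    (congrArg Subtype.val (Subgroup.mem_center_iff.mp hgc ⟨t j, mem_iv a (by omega)⟩)).symm
  rw [Nat.sub_self, iv_zero, Subgroup.mem_bot] at h2
  exact hg1 (Subtype.ext (Subtype.ext h2))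

theorem commutator_mem (h : Frame φ t s) [Finite H] {i j : ℤ} {l : ℕ} (hl : l + 2 ≤ s)
    (hj : j = i + l + 1) : ⁅t i, t j⁆ ∈ iv t (i + 1) l := by
  subst hj
  have hti : t i ∈ iv t i (l + 1) := mem_iv le_rfl (by push_cast; omega)
  have htj : t (i + l + 1) ∈ iv t (i + 1) (l + 1) := mem_iv (by omega) (by push_cast; omega)
  have hl1 : iv t i (l + 1) ≤ iv t i (l + 2) := iv_mono le_rfl (by push_cast; omega)
  have hl2 : iv t (i + 1) (l + 1) ≤ iv t i (l + 2) := iv_mono (by omega) (by push_cast; omega)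
  haveI n1 : ((iv t i (l + 1)).subgroupOf (iv t i (l + 2))).Normal :=
    Subgroup.normal_of_index_eq_two (h.relIndex_left (i := i) (l := l + 1) hl)
  haveI n2 : ((iv t (i + 1) (l + 1)).subgroupOf (iv t i (l + 2))).Normal :=
    Subgroup.normal_of_index_eq_two (h.relIndex_right (i := i) (l := l + 1) hl)
  rw [← h.inter i l hl, commutatorElement_def]
  refine ⟨?_, ?_⟩
  · have h1 : t (i + l + 1) * (t i)⁻¹ * (t (i + l + 1))⁻¹ ∈ iv t i (l + 1) :=
      n1.conj_mem ⟨_, hl1 ((iv t i (l + 1)).inv_mem hti)⟩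
        (Subgroup.mem_subgroupOf.mpr ((iv t i (l + 1)).inv_mem hti)) ⟨_, hl2 htj⟩
    rw [show t i * t (i + l + 1) * (t i)⁻¹ * (t (i + l + 1))⁻¹ =
      t i * (t (i + l + 1) * (t i)⁻¹ * (t (i + l + 1))⁻¹) by group]
    exact mul_mem hti h1
  · have h1 : t i * t (i + l + 1) * (t i)⁻¹ ∈ iv t (i + 1) (l + 1) :=
      n2.conj_mem ⟨_, hl2 htj⟩ (Subgroup.mem_subgroupOf.mpr htj) ⟨_, hl1 hti⟩
    exact mul_mem h1 ((iv t (i + 1) (l + 1)).inv_mem htj)

theorem commute_z (h : Frame φ t s) [Finite H] {d : ℕ} (hd : IsDist t d) {j : ℤ}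
    (h1 : (d : ℤ) + 2 ≤ j) (h2 : j ≤ s) : Commute ⁅t 1, t (1 + d)⁆ (t j) := by
  have hs2 := h.lt_two_mul hd
  obtain ⟨m, hm⟩ := Int.eq_ofNat_of_zero_le (show 0 ≤ j - 2 by omega)
  have hc := h.commutator_mem (i := 1) (j := j) (l := m) (by omega) (by omega)
  set c := ⁅t 1, t j⁆ with hcdef
  have hcb : Commute c (t (1 + d)) :=
    commute_iv hc fun k a b => h.commute_of_lt hd (by omega) (by omega)
  have hjb : Commute (t j) (t (1 + d)) := h.commute_of_lt hd (by omega) (by omega)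
  -- conjugation by `t j` fixes the commutator
  let ψ := (MulAut.conj (t j)).toMonoidHom
  have e1 : ψ (t 1) = t 1 * c := by
    simp only [ψ, hcdef, commutatorElement_def, MulEquiv.coe_toMonoidHom, MulAut.conj_apply]
    rw [← mul_assoc, ← mul_assoc, ← mul_assoc, h.sq, one_mul, h.inv 1]
  have e2 : ψ (t (1 + d)) = t (1 + d) := by
    simp only [ψ, MulEquiv.coe_toMonoidHom, MulAut.conj_apply]
    rw [hjb.eq, mul_inv_cancel_right]
  have e3 : ψ ⁅t 1, t (1 + d)⁆ = ⁅t 1, t (1 + d)⁆ := by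
    rw [map_commutatorElement, e1, e2, commutatorElement_def, commutatorElement_def, mul_assoc (t 1),
      hcb.eq]
    group
  simp only [ψ, MulEquiv.coe_toMonoidHom, MulAut.conj_apply] at e3
  exact (mul_inv_eq_iff_eq_mul.mp e3).symm

theorem commute_z' (h : Frame φ t s) [Finite H] {d : ℕ} (hd : IsDist t d) {j : ℤ}
    (h1 : 1 ≤ j) (h2 : j < (s : ℤ) - d) : Commute ⁅t ((s : ℤ) - d), t s⁆ (t j) := by
  have hs2 := h.lt_two_mul hd
  obtain ⟨m, hm⟩ := Int.eq_ofNat_of_zero_le (show 0 ≤ (s : ℤ) - j - 1 by omega)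
  have hc := h.commutator_mem (i := j) (j := (s : ℤ)) (l := m) (by omega) (by omega)
  set c := ⁅t j, t (s : ℤ)⁆ with hcdef
  have hcb : Commute c (t ((s : ℤ) - d)) :=
    commute_iv hc fun k a b => h.commute_of_lt hd (by omega) (by omega)
  have hjb : Commute (t j) (t ((s : ℤ) - d)) := h.commute_of_lt hd (by omega) (by omega)
  let ψ := (MulAut.conj (t j)).toMonoidHom
  have e1 : ψ (t (s : ℤ)) = t (s : ℤ) * c⁻¹ := by
    simp only [ψ, hcdef, commutatorElement_inv, MulEquiv.coe_toMonoidHom, MulAut.conj_apply]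
    rw [commutatorElement_def, ← mul_assoc, ← mul_assoc, ← mul_assoc, h.sq, one_mul, h.inv (s : ℤ)]
  have e2 : ψ (t ((s : ℤ) - d)) = t ((s : ℤ) - d) := by
    simp only [ψ, MulEquiv.coe_toMonoidHom, MulAut.conj_apply]
    rw [hjb.eq, mul_inv_cancel_right]
  have e3 : ψ ⁅t ((s : ℤ) - d), t s⁆ = ⁅t ((s : ℤ) - d), t s⁆ := by
    have hx : c⁻¹ * (t ((s : ℤ) - d))⁻¹ * c = (t ((s : ℤ) - d))⁻¹ := by
      rw [hcb.inv_inv.eq, inv_mul_cancel_right]
    rw [map_commutatorElement, e1, e2, commutatorElement_def, commutatorElement_def, mul_inv_rev,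
      inv_inv]
    calc _ = t ((s : ℤ) - d) * t (s : ℤ) * (c⁻¹ * (t ((s : ℤ) - d))⁻¹ * c) * (t (s : ℤ))⁻¹ := by
          group
      _ = _ := by rw [hx]
  simp only [ψ, MulEquiv.coe_toMonoidHom, MulAut.conj_apply] at e3
  exact (mul_inv_eq_iff_eq_mul.mp e3).symm

/-- The position of the basic commutator. -/
theorem z_bounds (h : Frame φ t s) [Finite H] {d : ℕ} (hd : IsDist t d) (hds : d + 1 ≤ s) :
    ⁅t 1, t (1 + d)⁆ ∈ iv t ((s : ℤ) - d + 1) (2 * d - s) ∧
    ⁅t ((s : ℤ) - d), t s⁆ ∈ iv t (2 * (s : ℤ) - 2 * d) (3 * d + 1 - 2 * s) ∧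
    2 * s ≤ 3 * d := by
  have hs2 := h.lt_two_mul hd
  have hd1 := hd.1
  have hz := h.commutator_mem (i := 1) (j := 1 + (d : ℤ)) (l := d - 1) (by omega) (by omega)
  have hz1 := h.shrink_left_iter hd (s - d - 1) (by omega) (by omega) hz
    fun j a b => h.commute_z hd (by omega) (by omega)
  rw [show (1 : ℤ) + 1 + ((s - d - 1 : ℕ) : ℤ) = (s : ℤ) - d + 1 by omega,
    show d - 1 - (s - d - 1) = 2 * d - s by omega] at hz1
  have hshift : (φ ^ (s - d - 1)) ⁅t 1, t (1 + d)⁆ = ⁅t ((s : ℤ) - d), t s⁆ := by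
    rw [h.commutator_shift]
    congr 2 <;> omega
  have hz2 : ⁅t ((s : ℤ) - d), t s⁆ ∈ iv t (2 * (s : ℤ) - 2 * d) (2 * d - s) := by
    rw [← hshift, show 2 * (s : ℤ) - 2 * d = (s : ℤ) - d + 1 + ((s - d - 1 : ℕ) : ℤ) by omega,
      ← h.map_pow_iv]
    exact ⟨_, hz1, rfl⟩
  have hz3 := h.shrink_right_iter hd (s - d - 1) (by omega) (by omega) hz2
    fun j a b c => h.commute_z' hd (by omega) (by omega)
  rw [show 2 * d - s - (s - d - 1) = 3 * d + 1 - 2 * s by omega] at hz3
  refine ⟨hz1, hz3, ?_⟩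
  by_contra hcon
  rw [show 3 * d + 1 - 2 * s = 0 by omega, iv_zero, Subgroup.mem_bot,
    commutatorElement_eq_one_iff_commute] at hz3
  have := h.not_commute hd ((s : ℤ) - d)
  rw [sub_add_cancel] at this
  exact this hz3

end Frame

end Cfsg.Agent.SimsLocal
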