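import Cfsg.Prelude.Def_PLocal
import Cfsg.Agent.SimsLocal.Chain
import Cfsg.Agent.SimsLocal.Cases
import Cfsg.Agent.SimsLocal.SmallGroups
import Cfsg.Agent.Cores.Basic

/-! Sims' theorem in local form. -/

set_option autoImplicit false

namespace Cfsg.Agent.SimsLocal

open scoped commutatorElement

section Frame

variable {H : Type*} [Group H] {φ : MulAut H} {S : Subgroup H} {s : ℕ}

theorem Setup.exists_frame [Finite H] (h : Setup φ S s) (hs : 1 ≤ s) :
    ∃ t : ℤ → H, Frame φ t s ∧ iv t 1 s = S := by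
  obtain ⟨e, -, he2, hP⟩ := h.exists_gen hs
  let t : ℤ → H := fun i => (φ ^ (i - s)) e
  have hiv : ∀ l, l ≤ s → 1 ≤ l → P φ S (s - l) = iv t ((s : ℤ) - l + 1) l := by
    intro l hls hl
    rw [hP l hl hls, iv]
    congr 1
    ext x
    constructor
    · rintro ⟨j, hj, rfl⟩
      exact ⟨(s : ℤ) - j, by omega, by omega, by simp [t, sub_sub_cancel_left]⟩
    · rintro ⟨j, a, b, rfl⟩
      refine ⟨((s : ℤ) - j).toNat, by omega, ?_⟩
      show (φ ^ (j - (s : ℤ))) e = _
      congr 2; omega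
  have hshift : ∀ i, φ (t i) = t (i + 1) := by
    intro i
    show φ ((φ ^ (i - (s : ℤ))) e) = (φ ^ (i + 1 - (s : ℤ))) e
    rw [show i + 1 - (s : ℤ) = 1 + (i - (s : ℤ)) by ring, zpow_add, zpow_one, MulAut.mul_apply]
  have hsh : ∀ (r i : ℤ) (l : ℕ), sh φ r (iv t i l) = iv t (i + r) l := by
    intro r i l
    rw [sh, iv, MonoidHom.map_closure, iv]
    congr 1
    ext x
    constructor
    · rintro ⟨_, ⟨j, a, b, rfl⟩, rfl⟩
      refine ⟨j + r, by omega, by omega, ?_⟩
      show (φ ^ r) ((φ ^ (j - (s : ℤ))) e) = (φ ^ (j + r - (s : ℤ))) e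
      rw [← MulAut.mul_apply, ← zpow_add]; congr 2; ring
    · rintro ⟨j, a, b, rfl⟩
      refine ⟨_, ⟨j - r, by omega, by omega, rfl⟩, ?_⟩
      show (φ ^ r) ((φ ^ (j - r - (s : ℤ))) e) = (φ ^ (j - (s : ℤ))) e
      rw [← MulAut.mul_apply, ← zpow_add]; congr 2; ring
  refine ⟨t, ⟨hshift, fun i => ?_, fun i l hl => ?_, fun i l hl => ?_⟩, ?_⟩
  · show (φ ^ (i - (s : ℤ))) e * (φ ^ (i - (s : ℤ))) e = 1
    rw [← map_mul, he2, map_one]
  · rcases Nat.eq_zero_or_pos l with rfl | hl0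
    · rw [iv_zero, Subgroup.card_bot, pow_zero]
    · have h1 := hsh (i - ((s : ℤ) - l + 1)) ((s : ℤ) - l + 1) l
      rw [add_sub_cancel] at h1
      rw [← h1, card_sh, ← hiv l hl hl0, (h.step (s - l) (by omega)).1]
      congr 1; omega
  · have h1 := hiv (l + 1) (by omega) (by omega)
    obtain ⟨k, hk⟩ : ∃ k, s - (l + 1) = k := ⟨_, rfl⟩
    rw [hk] at h1
    have hs1 : iv t i (l + 1) = sh φ (i - ((s : ℤ) - (l + 1 : ℕ) + 1)) (P φ S k) := by
      rw [h1, hsh, add_sub_cancel]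
    have hs2 : iv t (i + 1) (l + 1) =
        sh φ (i - ((s : ℤ) - (l + 1 : ℕ) + 1)) (sh φ 1 (P φ S k)) := by
      rw [h1, hsh, hsh]; congr 1; ring
    rw [hs1, hs2, ← sh_inf]
    show sh φ _ (P φ S (k + 1)) = _
    rcases Nat.eq_zero_or_pos l with rfl | hl0
    · rw [iv_zero]
      have hb : P φ S (k + 1) = ⊥ := by
        obtain ⟨hc, hr, -⟩ := h.step k (by omega)
        apply Subgroup.card_eq_one.mp
        have h2 := Subgroup.relIndex_mul_relIndex ⊥ (P φ S (k + 1)) (P φ S k) bot_le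
          (P_succ_le φ S k)
        rw [Subgroup.relIndex_bot_left, Subgroup.relIndex_bot_left, hr, hc,
          show s - k = 1 by omega, pow_one] at h2
        omega
      rw [hb, sh, Subgroup.map_bot]
    · rw [show k + 1 = s - l by omega, hiv l (by omega) hl0, hsh]
      congr 1; push_cast; ring
  · have h1 := hiv s le_rfl hs
    rw [Nat.sub_self, sub_self, zero_add] at h1
    exact h1.symm

end Frame

section Small

variable {H : Type*} [Group H] [Finite H] {φ : MulAut H} {t : ℤ → H}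

theorem conj_eq_of_commutator {a b z : H} (ha : a * a = 1) (hb : b * b = 1) (h : ⁅a, b⁆ = z) :
    b * a * b⁻¹ = a * z ∧ a * b * a⁻¹ = z * b := by
  subst h
  have ha' : a⁻¹ = a := inv_eq_of_mul_eq_one_right ha
  refine ⟨?_, by rw [commutatorElement_def, inv_mul_cancel_right]⟩
  rw [commutatorElement_def, ← mul_assoc, ← mul_assoc, ← mul_assoc, ha, one_mul, ha']

theorem conj_mul_apply (x g h : H) : x * (g * h) * x⁻¹ = x * g * x⁻¹ * (x * h * x⁻¹) := by group

theorem pow_mem_centralizer_of_conj {w : H} {n : ℕ} {i : ℤ} {l : ℕ}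
    (h : ∀ j, i ≤ j → j < i + l → (MulAut.conj w ^ n) (t j) = t j) :
    w ^ n ∈ Subgroup.centralizer (iv t i l : Set H) := by
  have h1 : Subgroup.centralizer (iv t i l : Set H) =
      Subgroup.centralizer {x | ∃ j : ℤ, i ≤ j ∧ j < i + l ∧ x = t j} :=
    Subgroup.centralizer_closure _
  rw [h1]
  rintro _ ⟨j, a, b, rfl⟩
  have h2 := h j a b
  rw [← map_pow, MulAut.conj_apply] at h2
  exact (mul_inv_eq_iff_eq_mul.mp h2).symm

theorem mem_iv_three (h : Frame φ t 4) {g : H} (hg : g ∈ iv t 1 3) :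
    g = 1 ∨ g = t 1 ∨ g = t 2 ∨ g = t 3 ∨ g = t 1 * t 2 ∨ g = t 1 * t 3 ∨ g = t 2 * t 3 ∨
      g = t 1 * (t 2 * t 3) := by
  have h2 : ∀ x ∈ iv t 2 2, x = 1 ∨ x = t 2 ∨ x = t 3 ∨ x = t 2 * t 3 := by
    intro x hx
    rcases h.mul_mem_left (i := 2) (l := 1) (by norm_num) hx with h1 | h1 <;>
      rcases h.eq_of_mem_one (by norm_num) h1 with h0 | h0 <;> norm_num at h0
    · exact Or.inl h0
    · exact Or.inr (Or.inr (Or.inl h0))
    · exact Or.inr (Or.inl (by rw [← mul_one (t 2), ← h0, ← mul_assoc, h.sq, one_mul]))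
    · exact Or.inr (Or.inr (Or.inr (by rw [← h0, ← mul_assoc, h.sq, one_mul])))
  rcases h.mul_mem_left (i := 1) (l := 2) (by norm_num) hg with h1 | h1 <;> norm_num at h1 <;>
    rcases h2 _ h1 with h0 | h0 | h0 | h0
  · exact Or.inl h0
  · exact Or.inr (Or.inr (Or.inl h0))
  · exact Or.inr (Or.inr (Or.inr (Or.inl h0)))
  · exact Or.inr (Or.inr (Or.inr (Or.inr (Or.inr (Or.inr (Or.inl h0))))))
  · exact Or.inr (Or.inl (by rw [← mul_one (t 1), ← h0, ← mul_assoc, h.sq, one_mul]))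
  · exact Or.inr (Or.inr (Or.inr (Or.inr (Or.inl (by rw [← h0, ← mul_assoc, h.sq, one_mul])))))
  · exact Or.inr (Or.inr (Or.inr (Or.inr (Or.inr (Or.inl (by
      rw [← h0, ← mul_assoc, h.sq, one_mul]))))))
  · exact Or.inr (Or.inr (Or.inr (Or.inr (Or.inr (Or.inr (Or.inr (by
      rw [← h0, ← mul_assoc, h.sq, one_mul])))))))

theorem mem_iv_two (h : Frame φ t 3) {g : H} (hg : g ∈ iv t 1 2) :
    g = 1 ∨ g = t 1 ∨ g = t 2 ∨ g = t 1 * t 2 := by
  rcases h.mul_mem_left (i := 1) (l := 1) (by norm_num) hg with h1 | h1 <;>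
    rcases h.eq_of_mem_one (by norm_num) h1 with h0 | h0 <;> norm_num at h0
  · exact Or.inl h0
  · exact Or.inr (Or.inr (Or.inl h0))
  · exact Or.inr (Or.inl (by rw [← mul_one (t 1), ← h0, ← mul_assoc, h.sq, one_mul]))
  · exact Or.inr (Or.inr (Or.inr (by rw [← h0, ← mul_assoc, h.sq, one_mul])))

/-- The case of length three. -/
theorem three (h : Frame φ t 3) (hd : Frame.IsDist t 2) :
    (t 0 * t 3) ^ 3 ∈ Subgroup.centralizer (iv t 1 2 : Set H) ∧
    ∀ g ∈ iv t 1 2, Commute g (t 0 * t 3) → g = 1 := by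
  obtain ⟨hz, -, -⟩ := h.z_bounds hd (by norm_num)
  norm_num at hz
  have hz13 : ⁅t 1, t 3⁆ = t 2 := by
    rcases h.eq_of_mem_one (by norm_num) hz with h1 | h1
    · rw [commutatorElement_eq_one_iff_commute] at h1
      exact absurd h1 (h.not_commute hd 1)
    · exact h1
  have hz02 : ⁅t 0, t 2⁆ = t 1 := by
    apply φ.injective
    rw [map_commutatorElement, h.shift, h.shift, h.shift]
    norm_num [hz13]
  have c12 : Commute (t 1) (t 2) := h.commute_of_lt hd (by norm_num) (by norm_num)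
  have b1 := (conj_eq_of_commutator (h.sq 1) (h.sq 3) hz13).1
  have b2 : t 3 * t 2 * (t 3)⁻¹ = t 2 := by
    rw [(h.commute_of_lt hd (i := 3) (j := 2) (by norm_num) (by norm_num)).eq, mul_inv_cancel_right]
  have a1 : t 0 * t 1 * (t 0)⁻¹ = t 1 := by
    rw [(h.commute_of_lt hd (i := 0) (j := 1) (by norm_num) (by norm_num)).eq, mul_inv_cancel_right]
  have a2 := (conj_eq_of_commutator (h.sq 0) (h.sq 2) hz02).2
  have w1 : MulAut.conj (t 0 * t 3) (t 1) = t 2 := by
    rw [map_mul, MulAut.mul_apply, MulAut.conj_apply, MulAut.conj_apply, b1, conj_mul_apply, a1, a2,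
      ← mul_assoc, h.sq, one_mul]
  have w2 : MulAut.conj (t 0 * t 3) (t 2) = t 1 * t 2 := by
    rw [map_mul, MulAut.mul_apply, MulAut.conj_apply, MulAut.conj_apply, b2, a2]
  have w3 : MulAut.conj (t 0 * t 3) (t 1 * t 2) = t 1 := by
    rw [map_mul, w1, w2, c12.eq, ← mul_assoc, h.sq, one_mul]
  refine ⟨pow_mem_centralizer_of_conj fun j a b => ?_, fun g hg hc => ?_⟩
  · have : j = 1 ∨ j = 2 := by push_cast at b; omega
    rcases this with rfl | rfl
    · simp only [pow_succ, pow_zero, one_mul, MulAut.mul_apply, w1, w2, w3]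
    · simp only [pow_succ, pow_zero, one_mul, MulAut.mul_apply, w1, w2, w3]
  · have hfix : MulAut.conj (t 0 * t 3) g = g := by
      rw [MulAut.conj_apply, hc.symm.eq, mul_inv_cancel_right]
    have hne : ∀ j : ℤ, t j ≠ 1 := fun j e => h.not_mem (i := j) (l := 0) (by norm_num)
      (by rw [e]; exact one_mem _)
    rcases mem_iv_two h hg with h1 | h1 | h1 | h1
    · exact h1
    · rw [h1, w1] at hfix
      exact absurd (show t 1 ∈ iv t 2 1 by rw [← hfix]; exact mem_iv le_rfl (by norm_num))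
        (h.not_mem (i := 1) (l := 1) (by norm_num))
    · rw [h1, w2] at hfix
      exact absurd (mul_eq_right.mp hfix) (hne 1)
    · rw [h1, w3] at hfix
      exact absurd (left_eq_mul.mp hfix) (hne 2)

/-- The case of length four. -/
theorem four (h : Frame φ t 4) (hd : Frame.IsDist t 3) :
    (t 0 * t 4) ^ 4 ∈ Subgroup.centralizer (iv t 1 3 : Set H) ∨
    (t 0 * t 4 ∈ Subgroup.normalizer (iv t 1 3 : Set H) →
    (t 0 * t 4) ^ 3 ∈ Subgroup.centralizer (iv t 1 3 : Set H) ∧
    (∀ g ∈ iv t 1 3, Commute g (t 0 * t 4) → g = 1 ∨ g = t 2) ∧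
    ⁅t 1, t 4⁆ = t 2 * t 3 ∧ ⁅t 0, t 3⁆ = t 1 * t 2) := by
  obtain ⟨hz, -, -⟩ := h.z_bounds hd (by norm_num)
  norm_num at hz
  have c12 : Commute (t 1) (t 2) := h.commute_of_lt hd (by norm_num) (by norm_num)
  have c13 : Commute (t 1) (t 3) := h.commute_of_lt hd (by norm_num) (by norm_num)
  have c23 : Commute (t 2) (t 3) := h.commute_of_lt hd (by norm_num) (by norm_num)
  have cf : ∀ i j : ℤ, i - j < 3 → j - i < 3 → t i * t j * (t i)⁻¹ = t j := fun i j p q => by
    rw [(h.commute_of_lt hd (i := i) (j := j) p q).eq, mul_inv_cancel_right]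
  have hz14 : ⁅t 1, t 4⁆ = t 2 ∨ ⁅t 1, t 4⁆ = t 3 ∨ ⁅t 1, t 4⁆ = t 2 * t 3 := by
    rcases h.mul_mem_left (i := 2) (l := 1) (by norm_num) hz with h1 | h1 <;>
      rcases h.eq_of_mem_one (by norm_num) h1 with h0 | h0 <;> norm_num at h0
    · rw [commutatorElement_eq_one_iff_commute] at h0
      exact absurd h0 (h.not_commute hd 1)
    · exact Or.inr (Or.inl h0)
    · exact Or.inl (by rw [← mul_one (t 2), ← h0, ← mul_assoc, h.sq, one_mul])
    · exact Or.inr (Or.inr (by rw [← h0, ← mul_assoc, h.sq, one_mul]))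
  have hz03 : φ ⁅t 0, t 3⁆ = ⁅t 1, t 4⁆ := by
    rw [map_commutatorElement, h.shift, h.shift]; norm_num
  have hw : ∀ x, MulAut.conj (t 0 * t 4) x = t 0 * (t 4 * x * (t 4)⁻¹) * (t 0)⁻¹ := fun x => by
    rw [map_mul, MulAut.mul_apply, MulAut.conj_apply, MulAut.conj_apply]
  have w2 : MulAut.conj (t 0 * t 4) (t 2) = t 2 := by
    rw [hw, cf 4 2 (by norm_num) (by norm_num), cf 0 2 (by norm_num) (by norm_num)]
  rcases hz14 with hz' | hz' | hz'
  · left
    have hy : ⁅t 0, t 3⁆ = t 1 := φ.injective (by rw [hz03, hz', h.shift]; norm_num)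
    have b1 := (conj_eq_of_commutator (h.sq 1) (h.sq 4) hz').1
    have a3 := (conj_eq_of_commutator (h.sq 0) (h.sq 3) hy).2
    have w1 : MulAut.conj (t 0 * t 4) (t 1) = t 1 * t 2 := by
      rw [hw, b1, conj_mul_apply, cf 0 1 (by norm_num) (by norm_num),
        cf 0 2 (by norm_num) (by norm_num)]
    have w3 : MulAut.conj (t 0 * t 4) (t 3) = t 1 * t 3 := by
      rw [hw, cf 4 3 (by norm_num) (by norm_num), a3]
    set W := MulAut.conj (t 0 * t 4) with hW
    have e1 : W (W (t 1)) = t 1 := by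
      rw [w1, map_mul, w1, w2, mul_assoc, h.sq, mul_one]
    have e3 : W (W (t 3)) = t 2 * t 3 := by
      rw [w3, map_mul, w1, w3, mul_assoc, ← mul_assoc (t 2), c12.symm.eq, ← mul_assoc (t 1),
        ← mul_assoc (t 1), h.sq, one_mul]
    refine pow_mem_centralizer_of_conj fun j a b => ?_
    have : j = 1 ∨ j = 2 ∨ j = 3 := by push_cast at b; omega
    rw [← hW]
    rcases this with rfl | rfl | rfl <;> simp only [pow_succ, pow_zero, one_mul, MulAut.mul_apply]
    · rw [e1, e1]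
    · rw [w2, w2, w2, w2]
    · rw [e3, map_mul, map_mul, w2, w2, e3, ← mul_assoc, h.sq, one_mul]
  · left
    have hy : ⁅t 0, t 3⁆ = t 2 := φ.injective (by rw [hz03, hz', h.shift]; norm_num)
    have b1 := (conj_eq_of_commutator (h.sq 1) (h.sq 4) hz').1
    have a3 := (conj_eq_of_commutator (h.sq 0) (h.sq 3) hy).2
    have w1 : MulAut.conj (t 0 * t 4) (t 1) = t 1 * (t 2 * t 3) := by
      rw [hw, b1, conj_mul_apply, cf 0 1 (by norm_num) (by norm_num), a3]
    have w3 : MulAut.conj (t 0 * t 4) (t 3) = t 2 * t 3 := by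
      rw [hw, cf 4 3 (by norm_num) (by norm_num), a3]
    set W := MulAut.conj (t 0 * t 4) with hW
    have e3 : W (W (t 3)) = t 3 := by
      rw [w3, map_mul, w2, w3, ← mul_assoc, h.sq, one_mul]
    have e1 : W (W (t 1)) = t 1 * t 2 := by
      rw [w1, map_mul, map_mul, w1, w2, w3, ← mul_assoc (t 2) (t 2), h.sq, one_mul,
        mul_assoc (t 1), mul_assoc (t 2), h.sq, mul_one]
    refine pow_mem_centralizer_of_conj fun j a b => ?_
    have : j = 1 ∨ j = 2 ∨ j = 3 := by push_cast at b; omega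
    rw [← hW]
    rcases this with rfl | rfl | rfl <;> simp only [pow_succ, pow_zero, one_mul, MulAut.mul_apply]
    · rw [e1, map_mul, map_mul, w2, w2, e1, mul_assoc, h.sq, mul_one]
    · rw [w2, w2, w2, w2]
    · rw [e3, e3]
  · right
    intro _
    have hy : ⁅t 0, t 3⁆ = t 1 * t 2 := φ.injective (by
      rw [hz03, hz', map_mul, h.shift, h.shift]; norm_num)
    have b1 := (conj_eq_of_commutator (h.sq 1) (h.sq 4) hz').1
    have a3 := (conj_eq_of_commutator (h.sq 0) (h.sq 3) hy).2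
    have w1 : MulAut.conj (t 0 * t 4) (t 1) = t 3 := by
      rw [hw, b1, conj_mul_apply, conj_mul_apply, cf 0 1 (by norm_num) (by norm_num),
        cf 0 2 (by norm_num) (by norm_num), a3]
      calc t 1 * (t 2 * (t 1 * t 2 * t 3)) = (t 1 * t 2) * (t 1 * t 2) * t 3 := by group
        _ = (t 1 * t 1) * (t 2 * t 2) * t 3 := by rw [c12.symm.mul_mul_mul_comm]
        _ = t 3 := by rw [h.sq, h.sq, one_mul, one_mul]
    have w3 : MulAut.conj (t 0 * t 4) (t 3) = t 1 * t 2 * t 3 := by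
      rw [hw, cf 4 3 (by norm_num) (by norm_num), a3]
    have w4 : MulAut.conj (t 0 * t 4) (t 1 * t 2 * t 3) = t 1 := by
      rw [map_mul, map_mul, w1, w2, w3]
      calc t 3 * t 2 * (t 1 * t 2 * t 3) = t 3 * (t 2 * (t 1 * t 2)) * t 3 := by group
        _ = t 3 * (t 1 * (t 2 * t 2)) * t 3 := by rw [c12.symm.left_comm]
        _ = t 3 * t 1 * t 3 := by rw [h.sq, mul_one]
        _ = t 1 := by rw [← c13.eq, mul_assoc, h.sq, mul_one]
    refine ⟨pow_mem_centralizer_of_conj fun j a b => ?_, fun g hg hc => ?_, hz', hy⟩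
    · have : j = 1 ∨ j = 2 ∨ j = 3 := by push_cast at b; omega
      rcases this with rfl | rfl | rfl <;>
        simp only [pow_succ, pow_zero, one_mul, MulAut.mul_apply, w1, w2, w3, w4]
    · have hfix : MulAut.conj (t 0 * t 4) g = g := by
        rw [MulAut.conj_apply, hc.symm.eq, mul_inv_cancel_right]
      have hm2 : ∀ {x}, x ∈ iv t 2 2 → x ≠ t 1 := fun hx e =>
        h.not_mem (i := 1) (l := 2) (by norm_num) (e ▸ hx)
      have h22 : t 2 ∈ iv t 2 2 := mem_iv le_rfl (by norm_num)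
      have h23 : t 3 ∈ iv t 2 2 := mem_iv (by norm_num) (by norm_num)
      rcases mem_iv_three h hg with h1 | h1 | h1 | h1 | h1 | h1 | h1 | h1
      · exact Or.inl h1
      · rw [h1, w1] at hfix; exact absurd hfix (hm2 h23)
      · exact Or.inr h1
      · rw [h1, w3, mul_eq_right] at hfix
        exact absurd ((mul_eq_one_iff_eq_inv.mp hfix).trans (h.inv 2)).symm (hm2 h22)
      · rw [h1, map_mul, w1, w2] at hfix
        exact absurd (mul_right_cancel hfix) (hm2 h23)
      · rw [h1, map_mul, w1, w3] at hfix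
        exfalso
        refine hm2 h22 ?_
        have h5 : t 3 * (t 1 * t 2 * t 3) = t 1 * t 2 := by
          rw [← mul_assoc, (c13.mul_left c23).symm.eq, mul_assoc, h.sq, mul_one]
        rw [h5] at hfix
        have h6 : t 2 = t 3 := mul_left_cancel hfix
        exact absurd (show t 2 ∈ iv t 3 1 by rw [h6]; exact mem_iv le_rfl (by norm_num))
          (h.not_mem (i := 2) (l := 1) (by norm_num))
      · rw [h1, map_mul, w2, w3] at hfix
        exfalso
        refine hm2 h22 ?_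
        have h5 : t 2 * (t 1 * t 2 * t 3) = t 1 * t 3 := by
          rw [← mul_assoc, c12.symm.left_comm, h.sq, mul_one]
        rw [h5] at hfix
        exact (mul_right_cancel hfix).symm
      · rw [h1, map_mul (MulAut.conj (t 0 * t 4)) (t 1), map_mul (MulAut.conj (t 0 * t 4)) (t 2),
          w1, w2, w3] at hfix
        exfalso
        have h5 := w4
        rw [map_mul (MulAut.conj (t 0 * t 4)) (t 1 * t 2),
          map_mul (MulAut.conj (t 0 * t 4)) (t 1), w1, w2, w3, mul_assoc] at h5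
        rw [h5] at hfix
        have h6 : t 2 * t 3 = 1 := left_eq_mul.mp hfix
        have h7 : t 2 = t 3 := (mul_eq_one_iff_eq_inv.mp h6).trans (h.inv 3)
        exact absurd (show t 2 ∈ iv t 3 1 by rw [h7]; exact mem_iv le_rfl (by norm_num))
          (h.not_mem (i := 2) (l := 1) (by norm_num))

end Small

end Cfsg.Agent.SimsLocal
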